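import Mathlib

/-!
Algebras of operators on a finite-dimensional complex space whose trace form is non-degenerate and whose centre
consists of scalars: a form of the density theorem, Casimir elements, and inner automorphisms.
-/

set_option autoImplicit false

namespace CfsgLib.Berger

open Module LinearMap

variable {S : Type*} [AddCommGroup S] [Module ℂ S] [FiniteDimensional ℂ S]

local notation "tr" => LinearMap.trace ℂ S

/-- Non-degenerate trace form and scalar centre. -/
structure Nice (A : Subalgebra ℂ (End ℂ S)) : Prop where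
  nd : ∀ a ∈ A, (∀ b ∈ A, tr (a * b) = 0) → a = 0
  center : ∀ a ∈ A, (∀ b ∈ A, a * b = b * a) → ∃ c : ℂ, a = c • 1

variable {A : Subalgebra ℂ (End ℂ S)}

theorem Nice.one_mem (hA : Nice A) (I : Submodule ℂ (End ℂ S)) (hI : I ≤ Subalgebra.toSubmodule A)
    (hl : ∀ a ∈ A, ∀ x ∈ I, a * x ∈ I) (hr : ∀ a ∈ A, ∀ x ∈ I, x * a ∈ I) (hne : I ≠ ⊥) :
    (1 : End ℂ S) ∈ I := by
  let Φ : I →ₗ[ℂ] Module.Dual ℂ I :=
    LinearMap.mk₂ ℂ (fun x y => tr ((x : End ℂ S) * (y : End ℂ S)))
      (fun x x' y => by simp [add_mul]) (fun c x y => by simp)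
      (fun x y y' => by simp [mul_add]) (fun c x y => by simp)
  have hinj : Function.Injective Φ := by
    rw [← LinearMap.ker_eq_bot, eq_bot_iff]
    rintro ⟨x, hx⟩ h
    rw [LinearMap.mem_ker] at h
    have h0 : ∀ y ∈ I, tr (x * y) = 0 := fun y hy => LinearMap.congr_fun h ⟨y, hy⟩
    have h1 : ∀ b ∈ A, x * b * x = 0 := fun b hb => hA.nd _ (A.mul_mem (A.mul_mem (hI hx) hb) (hI hx))
      fun c hc => by
        rw [mul_assoc x b x, mul_assoc]
        exact h0 _ (hr c hc _ (hl b hb x hx))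
    refine Submodule.mem_bot ℂ |>.2 (Subtype.ext (hA.nd x (hI hx) fun b hb => ?_))
    have hnil : IsNilpotent (x * b) := ⟨2, by rw [pow_two, ← mul_assoc, h1 b hb, zero_mul]⟩
    exact (LinearMap.isNilpotent_trace_of_isNilpotent hnil).eq_zero
  have hsurj : Function.Surjective Φ :=
    (LinearMap.injective_iff_surjective_of_finrank_eq_finrank Subspace.dual_finrank_eq.symm).1 hinj
  obtain ⟨⟨e, he⟩, hΦ⟩ := hsurj ((tr).comp I.subtype)
  have hte : ∀ y ∈ I, tr (e * y) = tr y := fun y hy => LinearMap.congr_fun hΦ ⟨y, hy⟩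
  have hey : ∀ y ∈ I, e * y = y := by
    intro y hy
    have hmem : e * y - y ∈ I := I.sub_mem (hl e (hI he) y hy) hy
    have : (⟨e * y - y, hmem⟩ : I) = 0 := hinj (by
      ext ⟨z, hz⟩
      show tr ((e * y - y) * z) = Φ 0 ⟨z, hz⟩
      rw [map_zero, LinearMap.zero_apply, sub_mul, map_sub, mul_assoc, hte _ (hl y (hI hy) z hz), sub_self])
    exact sub_eq_zero.1 (congrArg Subtype.val this)
  have hye : ∀ y ∈ I, y * e = y := by
    intro y hy
    have hmem : y * e - y ∈ I := I.sub_mem (hr e (hI he) y hy) hy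
    have : (⟨y * e - y, hmem⟩ : I) = 0 := hinj (by
      ext ⟨z, hz⟩
      show tr ((y * e - y) * z) = Φ 0 ⟨z, hz⟩
      rw [map_zero, LinearMap.zero_apply, sub_mul, map_sub, mul_assoc, trace_mul_comm ℂ y (e * z), mul_assoc,
        hte _ (hl z (hI hz) y hy), trace_mul_comm ℂ z y, sub_self])
    exact sub_eq_zero.1 (congrArg Subtype.val this)
  obtain ⟨c, hc⟩ := hA.center e (hI he) fun a ha => by
    calc e * a = e * a * e := (hye _ (hr a ha e he)).symm
      _ = e * (a * e) := mul_assoc _ _ _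
      _ = a * e := hey _ (hl a ha e he)
  obtain ⟨y, hy, hy0⟩ := (Submodule.ne_bot_iff I).1 hne
  have hc0 : c ≠ 0 := fun h => hy0 (by rw [← hey y hy, hc, h, zero_smul, zero_mul])
  have := I.smul_mem c⁻¹ he
  rwa [hc, smul_smul, inv_mul_cancel₀ hc0, one_smul] at this

/-- Linearly independent elements of `A` are independent over `A` acting by two-sided multiplication. -/
theorem Nice.indep (hA : Nice A) {ι : Type*} (c : ι → End ℂ S) (hli : LinearIndependent ℂ c) (s : Finset ι) :
    ∀ a : ι → End ℂ S, (∀ i, a i ∈ A) → (∀ X ∈ A, ∑ i ∈ s, a i * X * c i = 0) → ∀ i ∈ s, a i = 0 := by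
  classical
  induction s using Finset.induction_on with
  | empty => intro a _ _ i hi; simp at hi
  | insert j s hj ih =>
    intro a ha hrel
    suffices h : a j = 0 by
      have h' := ih a ha fun X hX => by simpa [Finset.sum_insert hj, h] using hrel X hX
      intro i hi
      rcases Finset.mem_insert.1 hi with rfl | hi
      exacts [h, h' i hi]
    by_contra hne
    let I : Submodule ℂ (End ℂ S) :=
      { carrier := {x | ∃ a : ι → End ℂ S, (∀ i, a i ∈ A) ∧ a j = x ∧
          ∀ X ∈ A, ∑ i ∈ insert j s, a i * X * c i = 0}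
        add_mem' := by
          rintro _ _ ⟨a, ha, rfl, h⟩ ⟨b, hb, rfl, h'⟩
          refine ⟨a + b, fun i => A.add_mem (ha i) (hb i), rfl, fun X hX => ?_⟩
          simp only [Pi.add_apply, add_mul, Finset.sum_add_distrib, h X hX, h' X hX, add_zero]
        zero_mem' := ⟨0, fun i => A.zero_mem, rfl, fun X _ => by simp⟩
        smul_mem' := by
          rintro r _ ⟨a, ha, rfl, h⟩
          refine ⟨r • a, fun i => A.smul_mem (ha i) r, rfl, fun X hX => ?_⟩
          simp only [Pi.smul_apply, smul_mul_assoc, ← Finset.smul_sum, h X hX, smul_zero] }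
    obtain ⟨b, hb, hbj, hbrel⟩ := hA.one_mem I (by rintro _ ⟨a, ha, rfl, -⟩; exact ha j)
      (by
        rintro d hd _ ⟨a, ha, rfl, h⟩
        refine ⟨fun i => d * a i, fun i => A.mul_mem hd (ha i), rfl, fun X hX => ?_⟩
        simp only [mul_assoc, ← Finset.mul_sum]
        simp only [← mul_assoc]
        rw [h X hX, mul_zero])
      (by
        rintro d hd _ ⟨a, ha, rfl, h⟩
        refine ⟨fun i => a i * d, fun i => A.mul_mem (ha i) hd, rfl, fun X hX => ?_⟩
        simp only [mul_assoc (a _) d X]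
        exact h _ (A.mul_mem hd hX))
      ((Submodule.ne_bot_iff _).2 ⟨a j, ⟨a, ha, rfl, hrel⟩, hne⟩)
    have hcom : ∀ d ∈ A, ∀ i ∈ s, b i * d - d * b i = 0 := fun d hd => by
      refine ih (fun i => b i * d - d * b i) (fun i => A.sub_mem (A.mul_mem (hb i) hd) (A.mul_mem hd (hb i)))
        fun X hX => ?_
      have h1 := hbrel _ (A.mul_mem hd hX)
      have h2 : d * ∑ i ∈ insert j s, b i * X * c i = 0 := by rw [hbrel X hX, mul_zero]
      rw [Finset.mul_sum, Finset.sum_insert hj, hbj, one_mul] at h2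
      rw [Finset.sum_insert hj, hbj, one_mul] at h1
      calc ∑ i ∈ s, (b i * d - d * b i) * X * c i
          = ∑ i ∈ s, b i * (d * X) * c i - ∑ i ∈ s, d * (b i * X * c i) := by
            rw [← Finset.sum_sub_distrib]
            exact Finset.sum_congr rfl fun i _ => by noncomm_ring
        _ = (d * X * c j + ∑ i ∈ s, b i * (d * X) * c i) -
            (d * (X * c j) + ∑ i ∈ s, d * (b i * X * c i)) := by rw [mul_assoc d X (c j)]; abel
        _ = 0 := by rw [h1, h2, sub_zero]
    have hsc : ∀ i, ∃ r : ℂ, i ∈ insert j s → b i = r • 1 := by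
      intro i
      by_cases hi : i ∈ insert j s
      · rcases Finset.mem_insert.1 hi with rfl | hi'
        · exact ⟨1, fun _ => by rw [hbj, one_smul]⟩
        · obtain ⟨r, hr⟩ := hA.center (b i) (hb i) fun d hd => sub_eq_zero.1 (hcom d hd i hi')
          exact ⟨r, fun _ => hr⟩
      · exact ⟨0, fun h => absurd h hi⟩
    choose r hr using hsc
    have h0 : ∑ i ∈ insert j s, r i • c i = 0 := by
      have := hbrel 1 A.one_mem
      rw [← this]
      exact Finset.sum_congr rfl fun i hi => by rw [hr i hi, mul_one, smul_mul_assoc, one_mul]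
    have hr0 := linearIndependent_iff'.1 hli _ r h0 j (Finset.mem_insert_self _ _)
    have hb0 : b j = 0 := by rw [hr j (Finset.mem_insert_self _ _), hr0, zero_smul]
    exact hne (by rw [← mul_one (a j), ← hbj, hb0, mul_zero])

/-- Dual bases for the trace form. -/
structure IsDual (A : Subalgebra ℂ (End ℂ S)) {d : ℕ} (e e' : Fin d → End ℂ S) : Prop where
  mem : ∀ i, e i ∈ A
  mem' : ∀ i, e' i ∈ A
  li : LinearIndependent ℂ e
  li' : LinearIndependent ℂ e'
  exp : ∀ a ∈ A, a = ∑ i, tr (a * e' i) • e i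
  exp' : ∀ a ∈ A, a = ∑ i, tr (a * e i) • e' i

theorem IsDual.swap {d : ℕ} {e e' : Fin d → End ℂ S} (h : IsDual A e e') : IsDual A e' e :=
  ⟨h.mem', h.mem, h.li', h.li, h.exp', h.exp⟩

theorem IsDual.apply {d : ℕ} {e e' : Fin d → End ℂ S} (h : IsDual A e e') (i j : Fin d) :
    tr (e i * e' j) = if i = j then 1 else 0 := by
  classical
  have h1 := h.exp _ (h.mem i)
  have h2 := linearIndependent_iff'.1 h.li Finset.univ (fun k => tr (e i * e' k) - if i = k then 1 else 0)
    (by rw [Finset.sum_congr rfl fun k _ => sub_smul _ _ (e k), Finset.sum_sub_distrib, ← h1]; simp) j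
    (Finset.mem_univ j)
  exact sub_eq_zero.1 h2

theorem exists_dual (nd : ∀ a ∈ A, (∀ b ∈ A, tr (a * b) = 0) → a = 0) :
    ∃ (d : ℕ) (e e' : Fin d → End ℂ S), IsDual A e e' := by
  classical
  let B : LinearMap.BilinForm ℂ A :=
    LinearMap.mk₂ ℂ (fun x y => tr ((x : End ℂ S) * (y : End ℂ S)))
      (fun x x' y => by simp [add_mul]) (fun c x y => by simp)
      (fun x y y' => by simp [mul_add]) (fun c x y => by simp)
  have hs : B.IsSymm := ⟨fun x y => trace_mul_comm ℂ (x : End ℂ S) y⟩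
  have hB : B.Nondegenerate := ⟨fun x hx => Subtype.ext (nd x x.2 fun b hb => hx ⟨b, hb⟩),
    fun x hx => Subtype.ext (nd x x.2 fun b hb => by rw [trace_mul_comm]; exact hx ⟨b, hb⟩)⟩
  let b := Module.finBasis ℂ A
  let b' := B.dualBasis hB b
  refine ⟨_, fun i => (b i : End ℂ S), fun i => (b' i : End ℂ S), fun i => (b i).2, fun i => (b' i).2,
    b.linearIndependent.map' (Subalgebra.toSubmodule A).subtype (Submodule.ker_subtype _),
    b'.linearIndependent.map' (Subalgebra.toSubmodule A).subtype (Submodule.ker_subtype _), ?_, ?_⟩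
  · intro a ha
    have := congrArg Subtype.val ((B.dualBasis hB b').sum_repr ⟨a, ha⟩).symm
    simp only [LinearMap.BilinForm.dualBasis_repr_apply] at this
    rw [show B.dualBasis hB b' = b from LinearMap.BilinForm.dualBasis_dualBasis hB hs b] at this
    simpa [B] using this
  · intro a ha
    have := congrArg Subtype.val (b'.sum_repr ⟨a, ha⟩).symm
    simp only [b', LinearMap.BilinForm.dualBasis_repr_apply] at this
    simpa [B, b'] using this

variable {d : ℕ} {e e' : Fin d → End ℂ S}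

/-- The Casimir element intertwines. -/
theorem IsDual.comm (h : IsDual A e e') (f g : End ℂ S →ₗ[ℂ] End ℂ S)
    (hf : ∀ a ∈ A, ∀ b ∈ A, f (a * b) = f a * f b) (hg : ∀ a ∈ A, ∀ b ∈ A, g (a * b) = g a * g b)
    (w : End ℂ S) {a : End ℂ S} (ha : a ∈ A) :
    g a * ∑ i, g (e' i) * w * f (e i) = (∑ i, g (e' i) * w * f (e i)) * f a := by
  rw [Finset.mul_sum, Finset.sum_mul]
  have h1 : ∀ i, g a * g (e' i) = ∑ j, tr (e j * a * e' i) • g (e' j) := fun i => by
    rw [← hg a ha _ (h.mem' i)]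
    conv_lhs => rw [h.exp' _ (A.mul_mem ha (h.mem' i))]
    simp only [map_sum, map_smul]
    refine Finset.sum_congr rfl fun j _ => ?_
    rw [trace_mul_comm, mul_assoc]
  have h2 : ∀ j, f (e j) * f a = ∑ i, tr (e j * a * e' i) • f (e i) := fun j => by
    rw [← hf _ (h.mem j) a ha]
    conv_lhs => rw [h.exp _ (A.mul_mem (h.mem j) ha)]
    simp only [map_sum, map_smul]
  calc ∑ i, g a * (g (e' i) * w * f (e i))
      = ∑ i, ∑ j, tr (e j * a * e' i) • (g (e' j) * w * f (e i)) := by
        refine Finset.sum_congr rfl fun i _ => ?_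
        rw [← mul_assoc, ← mul_assoc, h1 i, Finset.sum_mul, Finset.sum_mul]
        simp only [smul_mul_assoc]
    _ = ∑ j, ∑ i, tr (e j * a * e' i) • (g (e' j) * w * f (e i)) := Finset.sum_comm
    _ = ∑ j, g (e' j) * w * f (e j) * f a := by
        refine Finset.sum_congr rfl fun j _ => ?_
        rw [mul_assoc _ (f (e j)), h2 j, Finset.mul_sum]
        simp only [mul_smul_comm]

theorem IsDual.comm_id (h : IsDual A e e') (w : End ℂ S) {a : End ℂ S} (ha : a ∈ A) :
    a * ∑ i, e' i * w * e i = (∑ i, e' i * w * e i) * a :=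
  h.comm LinearMap.id LinearMap.id (fun _ _ _ _ => rfl) (fun _ _ _ _ => rfl) w ha

/-- `∑ eᵢ e'ᵢ` is a non-zero scalar. -/
theorem IsDual.scalar [Nontrivial S] (h : IsDual A e e')
    (hc : ∀ a ∈ A, (∀ b ∈ A, a * b = b * a) → ∃ c : ℂ, a = c • 1) :
    ∃ l : ℂ, l ≠ 0 ∧ ∑ i, e i * e' i = l • 1 := by
  have h1 : ∀ b ∈ A, (∑ i, e i * e' i) * b = b * ∑ i, e i * e' i := fun b hb => by
    have := (h.swap.comm_id 1 hb).symm
    simpa using this
  obtain ⟨l, hl⟩ := hc _ (A.sum_mem fun i _ => A.mul_mem (h.mem i) (h.mem' i)) h1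
  refine ⟨l, fun hl0 => ?_, hl⟩
  have ht := congrArg tr hl
  rw [map_sum, hl0, zero_smul, map_zero, Finset.sum_congr rfl fun i _ => (h.apply i i).trans (if_pos rfl)] at ht
  have hd : d = 0 := by simpa using ht
  subst hd
  have := h.exp 1 A.one_mem
  rw [Finset.univ_eq_empty, Finset.sum_empty] at this
  exact one_ne_zero this

/-- An automorphism of a nice algebra induced from the whole endomorphism algebra is inner. -/
theorem Nice.exists_implementer [Nontrivial S] (hA : Nice A) (f : End ℂ S ≃ₐ[ℂ] End ℂ S)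
    (hf : ∀ a ∈ A, f a ∈ A) :
    ∃ U ∈ A, ∃ U' ∈ A, U * U' = 1 ∧ U' * U = 1 ∧ ∀ a ∈ A, a * U = U * f a := by
  classical
  obtain ⟨d, e, e', h⟩ := exists_dual hA.nd
  obtain ⟨l, hl0, hl⟩ := h.scalar hA.center
  have hne : d ≠ 0 := by
    rintro rfl
    rw [Finset.univ_eq_empty, Finset.sum_empty] at hl
    exact hl0 (by simpa using (smul_eq_zero.1 hl.symm).resolve_right one_ne_zero)
  obtain ⟨X, hX, hU⟩ : ∃ X ∈ A, ∑ i, e' i * X * f (e i) ≠ 0 := by
    by_contra hc
    push Not at hc
    have h0 := hA.indep (fun i => f (e i)) (h.li.map' f.toLinearMap (LinearMap.ker_eq_bot.2 f.injective))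
      Finset.univ e' h.mem' hc ⟨0, Nat.pos_of_ne_zero hne⟩ (Finset.mem_univ _)
    exact h.li'.ne_zero _ h0
  set U := ∑ i, e' i * X * f (e i) with hUdef
  have hUA : U ∈ A := A.sum_mem fun i _ => A.mul_mem (A.mul_mem (h.mem' i) hX) (hf _ (h.mem i))
  have hUint : ∀ a ∈ A, a * U = U * f a := fun a ha =>
    h.comm f.toLinearMap LinearMap.id (fun a _ b _ => map_mul f a b) (fun _ _ _ _ => rfl) X ha
  obtain ⟨w, hw, hUw⟩ : ∃ w ∈ A, tr (U * w) ≠ 0 := by
    by_contra hc
    push Not at hc
    exact hU (hA.nd U hUA hc)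
  set V := ∑ i, f (e' i) * w * e i with hVdef
  have hVA : V ∈ A := A.sum_mem fun i _ => A.mul_mem (A.mul_mem (hf _ (h.mem' i)) hw) (h.mem i)
  have hVint : ∀ a ∈ A, f a * V = V * a := fun a ha =>
    h.comm LinearMap.id f.toLinearMap (fun _ _ _ _ => rfl) (fun a _ b _ => map_mul f a b) w ha
  obtain ⟨c, hc⟩ := hA.center (U * V) (A.mul_mem hUA hVA) fun b hb => by
    rw [mul_assoc, ← hVint b hb, ← mul_assoc, ← hUint b hb, mul_assoc]
  have htr : tr (U * V) = l * tr (U * w) := by
    rw [hVdef, Finset.mul_sum, map_sum]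
    calc ∑ i, tr (U * (f (e' i) * w * e i)) = ∑ i, tr (U * w * (e i * e' i)) := by
          refine Finset.sum_congr rfl fun i _ => ?_
          rw [mul_assoc (f _), ← mul_assoc U, ← hUint _ (h.mem' i), mul_assoc (e' i),
            trace_mul_comm ℂ (e' i), mul_assoc U, mul_assoc U, mul_assoc w]
      _ = tr (U * w * ∑ i, e i * e' i) := by rw [Finset.mul_sum, map_sum]
      _ = _ := by rw [hl, mul_smul_comm, mul_one, map_smul, smul_eq_mul]
  have hc0 : c ≠ 0 := fun h0 => mul_ne_zero hl0 hUw (by rw [← htr, hc, h0, zero_smul, map_zero])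
  have hright : U * (c⁻¹ • V) = 1 := by rw [mul_smul_comm, hc, smul_smul, inv_mul_cancel₀ hc0, one_smul]
  exact ⟨U, hUA, c⁻¹ • V, A.smul_mem hVA _, hright, mul_eq_one_comm.1 hright, hUint⟩

end CfsgLib.Berger
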