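import Cfsg.Agent.Berger.Algebra

/-!
Systems of imprimitivity of a representation and the graded algebra attached to a normal supplement of the
stabilizer of a block.
-/

set_option autoImplicit false

namespace CfsgLib.Berger

open Module LinearMap

variable {S : Type*} [AddCommGroup S] [Module ℂ S] {G : Type*} [Group G]

local notation "tr" => LinearMap.trace ℂ S

/-- A system of imprimitivity indexed by the cosets of `K`, given by its projections. -/
structure Imp (ρ : Representation ℂ G S) (K : Subgroup G) (P : G ⧸ K → End ℂ S) : Prop where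
  idem : ∀ x, P x * P x = P x
  orth : ∀ x y, x ≠ y → P x * P y = 0
  sum : ∀ [Fintype (G ⧸ K)], ∑ x, P x = 1
  equiv : ∀ (g : G) (x), ρ g * P x = P (g • x) * ρ g
  ne : ∀ x, P x ≠ 0

variable (ρ : Representation ℂ G S)

/-- The centralizer of the image of a set of group elements. -/
def cent (H : Set G) : Subalgebra ℂ (End ℂ S) := Subalgebra.centralizer ℂ (ρ '' H)

theorem mem_cent {H : Set G} {a : End ℂ S} : a ∈ cent ρ H ↔ ∀ h ∈ H, ρ h * a = a * ρ h := by
  simp [cent, Subalgebra.mem_centralizer_iff]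

theorem rho_inv (g : G) : ρ g * ρ g⁻¹ = 1 := by rw [← map_mul, mul_inv_cancel, map_one]

theorem inv_rho (g : G) : ρ g⁻¹ * ρ g = 1 := by rw [← map_mul, inv_mul_cancel, map_one]

/-- Conjugation by the image of a group element. -/
def cj (g : G) : End ℂ S ≃ₐ[ℂ] End ℂ S where
  toFun X := ρ g * X * ρ g⁻¹
  invFun X := ρ g⁻¹ * X * ρ g
  left_inv X := by
    show ρ g⁻¹ * (ρ g * X * ρ g⁻¹) * ρ g = X
    rw [mul_assoc, mul_assoc, inv_rho, mul_one, ← mul_assoc, inv_rho, one_mul]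
  right_inv X := by
    show ρ g * (ρ g⁻¹ * X * ρ g) * ρ g⁻¹ = X
    rw [mul_assoc, mul_assoc, rho_inv, mul_one, ← mul_assoc, rho_inv, one_mul]
  map_mul' X Y := by
    simp only [mul_assoc]
    congr 2
    rw [← mul_assoc (ρ g⁻¹) (ρ g), inv_rho, one_mul]
  map_add' X Y := by simp [mul_add, add_mul]
  commutes' c := by rw [Algebra.algebraMap_eq_smul_one]; simp [rho_inv]

theorem cj_apply (g : G) (X : End ℂ S) : cj ρ g X = ρ g * X * ρ g⁻¹ := rfl

theorem cj_mul (g h : G) (X : End ℂ S) : cj ρ (g * h) X = cj ρ g (cj ρ h X) := by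
  rw [cj_apply, cj_apply, cj_apply, mul_inv_rev, map_mul ρ g h, map_mul ρ h⁻¹ g⁻¹]
  simp only [mul_assoc]

theorem cj_one (X : End ℂ S) : cj ρ 1 X = X := by simp [cj_apply]

theorem cj_eq_self {g : G} {X : End ℂ S} : cj ρ g X = X ↔ ρ g * X = X * ρ g := by
  rw [cj_apply]
  constructor
  · intro h
    conv_rhs => rw [← h, mul_assoc, inv_rho, mul_one]
  · intro h
    rw [h, mul_assoc, rho_inv, mul_one]

theorem mem_cent' {H : Set G} {a : End ℂ S} : a ∈ cent ρ H ↔ ∀ h ∈ H, cj ρ h a = a := by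
  simp only [mem_cent, cj_eq_self]

theorem cj_mem_cent {H : Subgroup G} [hH : H.Normal] (g : G) {a : End ℂ S} (ha : a ∈ cent ρ (H : Set G)) :
    cj ρ g a ∈ cent ρ (H : Set G) := by
  rw [mem_cent'] at ha ⊢
  intro h hh
  rw [← cj_mul, show h * g = g * (g⁻¹ * h * g) by group, cj_mul, ha _ (hH.conj_mem' h hh g)]

theorem tr_cj (g : G) (X : End ℂ S) : tr (cj ρ g X) = tr X := by
  rw [cj_apply, trace_mul_comm, ← mul_assoc, inv_rho, one_mul]

theorem eq_zero_of_forall_tr [FiniteDimensional ℂ S] {a : End ℂ S} (h : ∀ Y, tr (a * Y) = 0) : a = 0 := by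
  refine LinearMap.ext fun v => (Module.forall_dual_apply_eq_zero_iff ℂ (a v)).1 fun φ => ?_
  have := h (φ.smulRight v)
  rwa [show a * φ.smulRight v = φ.smulRight (a v) from by ext w; simp, LinearMap.trace_smulRight] at this

/-- Averaging over a subgroup. -/
noncomputable def avg (H : Subgroup G) [Fintype H] (Y : End ℂ S) : End ℂ S := ∑ h : H, cj ρ (h : G) Y

theorem avg_mem (H : Subgroup G) [Fintype H] (Y : End ℂ S) : avg ρ H Y ∈ cent ρ (H : Set G) := by
  rw [mem_cent']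
  intro h hh
  rw [avg, map_sum]
  exact Fintype.sum_equiv (Equiv.mulLeft (⟨h, hh⟩ : H)) _ _ fun x => ((cj_mul ρ h x Y).symm : _ = cj ρ (h * (x : G)) Y)

theorem tr_avg (H : Subgroup G) [Fintype H] {a : End ℂ S} (ha : a ∈ cent ρ (H : Set G)) (Y : End ℂ S) :
    tr (a * avg ρ H Y) = Fintype.card H * tr (a * Y) := by
  rw [avg, Finset.mul_sum, map_sum, Finset.sum_congr rfl fun (h : H) _ => show tr (a * cj ρ (h : G) Y) = tr (a * Y) by
    conv_lhs => rw [← (mem_cent' ρ).1 ha h h.2, ← map_mul, tr_cj]]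
  simp

theorem nd_cent [FiniteDimensional ℂ S] [Finite G] (H : Subgroup G) (a : End ℂ S) (ha : a ∈ cent ρ (H : Set G))
    (h : ∀ b ∈ cent ρ (H : Set G), tr (a * b) = 0) : a = 0 := by
  letI := Fintype.ofFinite H
  refine eq_zero_of_forall_tr fun Y => ?_
  have h1 := h _ (avg_mem ρ H Y)
  rw [tr_avg ρ H ha] at h1
  exact (mul_eq_zero.1 h1).resolve_left (Nat.cast_ne_zero.2 Fintype.card_ne_zero)

section Graded

variable {ρ} {K : Subgroup G} {P : G ⧸ K → End ℂ S}

/-- `a` shifts the blocks by `g`. -/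
def Deg (P : G ⧸ K → End ℂ S) (a : End ℂ S) (g : G) : Prop := ∀ x, a * P x = P (g • x) * a

theorem Deg.mul {a b : End ℂ S} {g h : G} (ha : Deg P a g) (hb : Deg P b h) : Deg P (a * b) (g * h) := by
  intro x
  rw [mul_assoc, hb x, ← mul_assoc, ha, mul_assoc, mul_smul]

theorem Deg.congr {a : End ℂ S} {g h : G} (ha : Deg P a g) (e : ∀ x : G ⧸ K, g • x = h • x) : Deg P a h :=
  fun x => by rw [ha x, e]

theorem deg_one {a : End ℂ S} : Deg P a 1 ↔ ∀ x, P x * a = a * P x := by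
  simp [Deg, eq_comm]

theorem Deg.pow {a : End ℂ S} {g : G} (ha : Deg P a g) : ∀ n : ℕ, Deg P (a ^ n) (g ^ n)
  | 0 => fun x => by simp
  | n + 1 => by rw [pow_succ, pow_succ]; exact (Deg.pow ha n).mul ha

theorem Imp.equiv' (hP : Imp ρ K P) (g : G) (x : G ⧸ K) : cj ρ g (P x) = P (g • x) := by
  rw [cj_apply, hP.equiv, mul_assoc, rho_inv, mul_one]

theorem Deg.conj (hP : Imp ρ K P) {a : End ℂ S} {g : G} (ha : Deg P a g) (k : G) :
    Deg P (cj ρ k a) (k * g * k⁻¹) := by
  intro x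
  have hx : P x = cj ρ k (P (k⁻¹ • x)) := by rw [hP.equiv', smul_inv_smul]
  conv_lhs => rw [hx, ← map_mul, ha, map_mul, hP.equiv']
  rw [mul_smul, mul_smul]

theorem Imp.eq_of_mul [Finite G] (hP : Imp ρ K P) {x y : G ⧸ K} (h : P x * P y ≠ 0) : x = y := by
  by_contra hne
  exact h (hP.orth x y hne)

theorem Deg.tr_eq_zero [Fintype (G ⧸ K)] (hP : Imp ρ K P) {a : End ℂ S} {g : G} (ha : Deg P a g)
    (hg : ∀ x : G ⧸ K, g • x ≠ x) : tr a = 0 := by
  have : ∀ x, tr (a * P x) = 0 := fun x => by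
    rw [← hP.idem x, ← mul_assoc, trace_mul_comm, ha, ← mul_assoc, hP.orth _ _ (hg x).symm, zero_mul, map_zero]
  rw [← mul_one a, ← hP.sum, Finset.mul_sum, map_sum]
  exact Finset.sum_eq_zero fun x _ => this x

theorem Deg.eq_of_inv (hP : Imp ρ K P) [Finite G] {a a' : End ℂ S} {g h : G} (ha : Deg P a g) (hb : Deg P a h)
    (hinv : a * a' = 1) (x : G ⧸ K) : g • x = h • x := by
  refine hP.eq_of_mul fun h0 => hP.ne (g • x) ?_
  have : P (g • x) = P (h • x) := by
    rw [← mul_one (P (g • x)), ← hinv, ← mul_assoc, ← ha, hb, mul_assoc, hinv, mul_one]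
  rw [← this, hP.idem] at h0
  exact h0

/-- The component of degree `g`. -/
noncomputable def comp [Fintype (G ⧸ K)] (P : G ⧸ K → End ℂ S) (b : End ℂ S) (g : G) : End ℂ S :=
  ∑ x, P (g • x) * b * P x

theorem deg_comp [Fintype (G ⧸ K)] (hP : Imp ρ K P) (b : End ℂ S) (g : G) : Deg P (comp P b g) g := by
  intro y
  rw [comp, Finset.sum_mul, Finset.mul_sum, Finset.sum_eq_single y ?_ (by simp), Finset.sum_eq_single y ?_ (by simp)]
  · rw [mul_assoc _ (P y), hP.idem, ← mul_assoc (P _) (P _ * b), ← mul_assoc (P (g • y)), hP.idem]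
  · intro x _ hx
    rw [← mul_assoc, ← mul_assoc, hP.orth _ _ (fun e => hx (MulAction.injective g e).symm), zero_mul, zero_mul]
  · intro x _ hx
    rw [mul_assoc, hP.orth x y hx, mul_zero]

theorem tr_mul_comp [Fintype (G ⧸ K)] (hP : Imp ρ K P) {a : End ℂ S} {g : G} (ha : Deg P a g) (b : End ℂ S) :
    tr (a * comp P b g⁻¹) = tr (a * b) := by
  rw [comp, Finset.mul_sum, map_sum]
  conv_rhs => rw [← one_mul (a * b), ← hP.sum, Finset.sum_mul, map_sum]
  refine Finset.sum_congr rfl fun x _ => ?_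
  rw [← mul_assoc a, trace_mul_comm, ← mul_assoc a, ha, smul_inv_smul, ← mul_assoc, ← mul_assoc, hP.idem,
    mul_assoc]

end Graded

end CfsgLib.Berger
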