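import Cfsg.Agent.Berger.Basic
import Cfsg.Agent.Clifford.FullyRamifiedSection

/-!
From characters to operators: homogeneous restrictions have scalar centralizer centre, irreducible representations
have scalar centralizer, and induced irreducible characters give systems of imprimitivity.
-/

set_option autoImplicit false

namespace CfsgLib.Berger

open Module LinearMap
open scoped ComplexConjugate

variable {G : Type*} [Group G]

theorem sum_mul_tr_eq_zero {T U : Type*} [AddCommGroup T] [Module ℂ T] [FiniteDimensional ℂ T]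
    [AddCommGroup U] [Module ℂ U] [FiniteDimensional ℂ U] {κ : Type*} [Fintype κ]
    (f : κ → (U →ₗ[ℂ] U)) (g : κ → (T →ₗ[ℂ] T))
    (h : ∀ A : T →ₗ[ℂ] U, ∑ k, (f k) ∘ₗ A ∘ₗ (g k) = 0) :
    ∑ k, LinearMap.trace ℂ U (f k) * LinearMap.trace ℂ T (g k) = 0 := by
  classical
  let bU := Module.finBasis ℂ U
  let bT := Module.finBasis ℂ T
  have h0 : ∀ (i : Fin _) (j : Fin _), ∑ k, bU.repr (f k (bU i)) i * bT.repr (g k (bT j)) j = 0 := by
    intro i j
    have := congrArg (fun l : T →ₗ[ℂ] U => bU.repr (l (bT j)) i) (h ((bT.coord j).smulRight (bU i)))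
    simpa [LinearMap.sum_apply, Finsupp.finset_sum_apply, mul_comm] using this
  have htU : ∀ l : U →ₗ[ℂ] U, LinearMap.trace ℂ U l = ∑ i, bU.repr (l (bU i)) i := fun l => by
    simp [LinearMap.trace_eq_matrix_trace ℂ bU, Matrix.trace, LinearMap.toMatrix_apply]
  have htT : ∀ l : T →ₗ[ℂ] T, LinearMap.trace ℂ T l = ∑ i, bT.repr (l (bT i)) i := fun l => by
    simp [LinearMap.trace_eq_matrix_trace ℂ bT, Matrix.trace, LinearMap.toMatrix_apply]
  calc ∑ k, LinearMap.trace ℂ U (f k) * LinearMap.trace ℂ T (g k)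
      = ∑ k, ∑ i, ∑ j, bU.repr (f k (bU i)) i * bT.repr (g k (bT j)) j := by
        simp only [htU, htT, Finset.sum_mul, Finset.mul_sum]
        exact Finset.sum_congr rfl fun k _ => Finset.sum_comm
    _ = ∑ i, ∑ k, ∑ j, bU.repr (f k (bU i)) i * bT.repr (g k (bT j)) j := Finset.sum_comm
    _ = 0 := Finset.sum_eq_zero fun i _ => by
        rw [Finset.sum_comm]
        exact Finset.sum_eq_zero fun j _ => h0 i j

variable {S : Type*} [AddCommGroup S] [Module ℂ S] [FiniteDimensional ℂ S]

/-- The character cut out by an invariant projection. -/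
theorem isCharacter_proj (ρ : Representation ℂ G S) {p : End ℂ S} (hp : p * p = p)
    (hc : ∀ g, ρ g * p = p * ρ g) :
    Cfsg.IsCharacter G (fun g => LinearMap.trace ℂ S (ρ g * p)) ∧
      LinearMap.trace ℂ S (ρ 1 * p) = (Module.finrank ℂ (LinearMap.range p) : ℂ) := by
  let π : S →ₗ[ℂ] LinearMap.range p := p.rangeRestrict
  let i : LinearMap.range p →ₗ[ℂ] S := (LinearMap.range p).subtype
  have hip : i ∘ₗ π = p := rfl
  have hπi : π ∘ₗ i = LinearMap.id := by
    refine LinearMap.ext fun ⟨v, hv⟩ => Subtype.ext ?_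
    obtain ⟨u, rfl⟩ := hv
    exact LinearMap.congr_fun hp u
  let σ : Representation ℂ G (LinearMap.range p) :=
    { toFun := fun g => π ∘ₗ (ρ g) ∘ₗ i
      map_one' := by rw [map_one]; exact hπi
      map_mul' := fun a b => by
        refine LinearMap.ext fun ⟨v, hv⟩ => Subtype.ext ?_
        obtain ⟨u, rfl⟩ := hv
        show p (ρ (a * b) (p u)) = p (ρ a (p (ρ b (p u))))
        rw [map_mul, Module.End.mul_apply]
        conv_rhs => rw [show p (ρ b (p u)) = ρ b (p (p u)) from (LinearMap.congr_fun (hc b) (p u)).symm,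
          show p (p u) = p u from LinearMap.congr_fun hp u] }
  have hσ : (fun g => LinearMap.trace ℂ S (ρ g * p)) = σ.character := funext fun g => by
    show _ = LinearMap.trace ℂ _ (π ∘ₗ ((ρ g) ∘ₗ i))
    rw [LinearMap.trace_comp_comm', LinearMap.comp_assoc, hip]
    rfl
  refine ⟨hσ ▸ CfsgLib.Clifford.isCharacter_of_rep σ, ?_⟩
  rw [show LinearMap.trace ℂ S (ρ 1 * p) = σ.character 1 from congrFun hσ 1, Representation.char_one]

/-- A homogeneous restriction has centralizer with scalar centre. -/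
theorem center_cent_of_homogeneous [Nontrivial S] (ρ : Representation ℂ G S) (N : Subgroup G) [Fintype N]
    {ϑ : N → ℂ} {e : ℕ} (hϑ : Cfsg.IsIrrCharacter N ϑ) (he : ∀ n : N, ρ.character n = (e : ℂ) * ϑ n)
    {z : End ℂ S} (hz : z ∈ cent ρ (N : Set G)) (hzc : ∀ b ∈ cent ρ (N : Set G), z * b = b * z) :
    ∃ c : ℂ, z = c • 1 := by
  classical
  obtain ⟨c, hc⟩ := Module.End.exists_eigenvalue z
  refine ⟨c, ?_⟩
  set W := z.eigenspace c with hW
  by_cases hWtop : W = ⊤
  · refine LinearMap.ext fun v => ?_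
    have hv : v ∈ W := hWtop ▸ Submodule.mem_top
    rw [hW, Module.End.mem_eigenspace_iff] at hv
    simpa using hv
  exfalso
  have hWinv : ∀ b : End ℂ S, z * b = b * z → ∀ v ∈ W, b v ∈ W := by
    intro b hb v hv
    rw [hW, Module.End.mem_eigenspace_iff] at hv ⊢
    rw [← Module.End.mul_apply, hb, Module.End.mul_apply, hv, map_smul]
  obtain ⟨p₀, hp₀⟩ := W.subtype.exists_leftInverse_of_injective W.ker_subtype
  set p : End ℂ S := (Fintype.card N : ℂ)⁻¹ • avg ρ N (W.subtype ∘ₗ p₀) with hp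
  have hpc : p ∈ cent ρ (N : Set G) := Subalgebra.smul_mem _ (avg_mem ρ N _) _
  have hρW : ∀ n ∈ N, ∀ v ∈ W, ρ n v ∈ W := fun n hn => hWinv _ ((mem_cent ρ).1 hz n hn).symm
  have hpmem : ∀ v, p v ∈ W := by
    intro v
    rw [hp, LinearMap.smul_apply, avg, LinearMap.sum_apply]
    refine W.smul_mem _ (W.sum_mem fun n _ => ?_)
    rw [cj_apply, Module.End.mul_apply, Module.End.mul_apply]
    exact hρW n n.2 _ (p₀ _).2
  have hpid : ∀ v ∈ W, p v = v := by
    intro v hv
    rw [hp, LinearMap.smul_apply, avg, LinearMap.sum_apply, Finset.sum_congr rfl fun (n : N) _ => show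
      cj ρ (n : G) (W.subtype ∘ₗ p₀) v = v by
        have hw : ρ (n : G)⁻¹ v ∈ W := hρW _ (N.inv_mem n.2) v hv
        have h2 : p₀ (ρ (n : G)⁻¹ v) = ⟨_, hw⟩ := LinearMap.congr_fun hp₀ ⟨_, hw⟩
        rw [cj_apply, Module.End.mul_apply, Module.End.mul_apply, LinearMap.comp_apply, h2]
        show ρ (n : G) (ρ (n : G)⁻¹ v) = v
        rw [← Module.End.mul_apply, rho_inv, Module.End.one_apply],
      Finset.sum_const, Finset.card_univ, ← Nat.cast_smul_eq_nsmul ℂ, smul_smul,
      inv_mul_cancel₀ (Nat.cast_ne_zero.2 Fintype.card_ne_zero), one_smul]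
  have hpp : p * p = p := LinearMap.ext fun v => hpid _ (hpmem v)
  set q : End ℂ S := 1 - p with hq
  have hqc : q ∈ cent ρ (N : Set G) := Subalgebra.sub_mem _ (Subalgebra.one_mem _) hpc
  have hqq : q * q = q := by rw [hq, sub_mul, one_mul, mul_sub, mul_one, hpp, sub_self, sub_zero]
  have hzero : ∀ A : S →ₗ[ℂ] S, ∑ n : N, (ρ (n : G) * q) ∘ₗ A ∘ₗ (ρ (n : G)⁻¹ * p) = 0 := by
    intro A
    have h1 : q * avg ρ N A * p = 0 := by
      refine LinearMap.ext fun v => ?_
      have hm : avg ρ N A (p v) ∈ W := hWinv _ (hzc _ (avg_mem ρ N A)) _ (hpmem v)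
      rw [Module.End.mul_apply, Module.End.mul_apply, hq, LinearMap.sub_apply, Module.End.one_apply, hpid _ hm,
        sub_self, LinearMap.zero_apply]
    rw [← h1, avg, Finset.mul_sum, Finset.sum_mul]
    refine Finset.sum_congr rfl fun n _ => ?_
    show ρ (n : G) * q * (A * (ρ (n : G)⁻¹ * p)) = _
    rw [cj_apply, (mem_cent ρ).1 hqc n n.2]
    simp only [mul_assoc]
  have h2 := sum_mul_tr_eq_zero (fun n : N => ρ (n : G) * q) (fun n : N => ρ (n : G)⁻¹ * p) hzero
  obtain ⟨hpchar, hp1⟩ := isCharacter_proj (ρ.comp N.subtype) hpp fun n => (mem_cent ρ).1 hpc n n.2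
  obtain ⟨hqchar, hq1⟩ := isCharacter_proj (ρ.comp N.subtype) hqq fun n => (mem_cent ρ).1 hqc n n.2
  set a : N → ℂ := fun n => LinearMap.trace ℂ S (ρ (n : G) * p) with ha
  set b : N → ℂ := fun n => LinearMap.trace ℂ S (ρ (n : G) * q) with hb
  have hpchar' : Cfsg.IsCharacter N a := hpchar
  have hqchar' : Cfsg.IsCharacter N b := hqchar
  have hab : a + b = (e : ℂ) • ϑ := funext fun n => by
    show LinearMap.trace ℂ S (ρ (n : G) * p) + LinearMap.trace ℂ S (ρ (n : G) * q) = _
    rw [← map_add, ← mul_add, hq, add_sub_cancel, mul_one]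
    exact he n
  have hother : ∀ φ : N → ℂ, Cfsg.IsIrrCharacter N φ → φ ≠ ϑ →
      Cfsg.classInner a φ = 0 ∧ Cfsg.classInner b φ = 0 := by
    intro φ hφ hne
    obtain ⟨i, hi⟩ := CharBasics.classInner_characters_nat hpchar' (CharBasics.isCharacter_of_irr hφ)
    obtain ⟨j, hj⟩ := CharBasics.classInner_characters_nat hqchar' (CharBasics.isCharacter_of_irr hφ)
    have := congrArg (fun f => Cfsg.classInner f φ) hab
    simp only [CharBasics.classInner_add_left, CharBasics.classInner_smul_left,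
      CharBasics.classInner_ne hϑ hφ (Ne.symm hne), mul_zero, hi, hj] at this
    have h0 : i + j = 0 := by exact_mod_cast this
    rw [hi, hj]
    simp [show i = 0 by omega, show j = 0 by omega]
  have hav := CfsgLib.Clifford.RamifiedSection.eq_smul_of_unique (CharBasics.isClassFunction hpchar') hϑ
    fun φ hφ h => by_contra fun hne => h (hother φ hφ hne).1
  have hbv := CfsgLib.Clifford.RamifiedSection.eq_smul_of_unique (CharBasics.isClassFunction hqchar') hϑ
    fun φ hφ h => by_contra fun hne => h (hother φ hφ hne).2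
  have hpos : ∀ (f : N → ℂ) (r : End ℂ S), f 1 = (Module.finrank ℂ (LinearMap.range r) : ℂ) →
      r ≠ 0 → f = Cfsg.classInner f ϑ • ϑ → Cfsg.classInner f ϑ ≠ 0 := by
    intro f r hf hr hfv h0
    have := congrFun hfv 1
    rw [hf, h0, zero_smul, Pi.zero_apply, Nat.cast_eq_zero, Submodule.finrank_eq_zero, LinearMap.range_eq_bot] at this
    exact hr this
  have hp0 : p ≠ 0 := fun h0 => hc.exists_hasEigenvector.choose_spec.2 (by
    have h3 := hpid _ hc.exists_hasEigenvector.choose_spec.1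
    rw [h0] at h3
    exact h3.symm)
  have hq0 : q ≠ 0 := fun h0 => hWtop (eq_top_iff.2 fun v _ => by
    have h3 := hpmem v
    rwa [show p = 1 from (sub_eq_zero.1 h0).symm] at h3)
  have hA := hpos a p (by simpa [ha] using hp1) hp0 hav
  have hB := hpos b q (by simpa [hb] using hq1) hq0 hbv
  have hinner : Cfsg.classInner b a = 0 := by
    rw [CharBasics.classInner_eq, Finset.sum_congr rfl fun (n : N) _ => show b n * conj (a n) =
      LinearMap.trace ℂ S (ρ (n : G) * q) * LinearMap.trace ℂ S (ρ (n : G)⁻¹ * p) by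
        rw [← CharBasics.apply_inv hpchar']; rfl, h2, mul_zero]
  rw [hav, hbv, CharBasics.classInner_smul_left, CharBasics.classInner_comm _ ϑ, CharBasics.classInner_smul_left,
    CharBasics.classInner_self hϑ, mul_one, mul_eq_zero, map_eq_zero] at hinner
  rcases hinner with h | h
  exacts [hB h, hA h]

theorem scalar_of_irreducible [Nontrivial S] (ρ : Representation ℂ G S) (hρ : ρ.IsIrreducible) {a : End ℂ S}
    (ha : a ∈ cent ρ (Set.univ : Set G)) : ∃ c : ℂ, a = c • 1 := by
  obtain ⟨c, hc⟩ := Module.End.exists_eigenvalue a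
  let W : Subrepresentation ρ := ⟨a.eigenspace c, fun g v hv => by
    rw [Module.End.mem_eigenspace_iff] at hv ⊢
    rw [← Module.End.mul_apply, ← (mem_cent ρ).1 ha g (Set.mem_univ g), Module.End.mul_apply, hv, map_smul]⟩
  refine ⟨c, LinearMap.ext fun v => ?_⟩
  haveI : IsSimpleOrder (Subrepresentation ρ) := hρ
  rcases eq_bot_or_eq_top W with h | h
  · exact absurd (congrArg Subrepresentation.toSubmodule h) hc
  · have hv : v ∈ W.toSubmodule := by rw [h]; exact Submodule.mem_top
    simpa using Module.End.mem_eigenspace_iff.1 hv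

/-- An induced irreducible character yields a system of imprimitivity. -/
theorem exists_imp [Fintype G] {n : ℕ} [Nonempty (Fin n)] (ρ : Representation ℂ G (Fin n → ℂ)) (hρ : ρ.IsIrreducible)
    (hχ : Cfsg.IsIrrCharacter G ρ.character) (K : Subgroup G)
    {ψ : K → ℂ} (hψ : Cfsg.IsCharacter K ψ) (h : Cfsg.indFun K ψ = ρ.character) :
    ∃ P : G ⧸ K → End ℂ (Fin n → ℂ), Imp ρ K P := by
  classical
  letI := Fintype.ofFinite K
  letI := Fintype.ofFinite (G ⧸ K)
  obtain ⟨m, σ, rfl⟩ := hψ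
  obtain ⟨A₀, hA₀⟩ : ∃ A : (Fin m → ℂ) →ₗ[ℂ] (Fin n → ℂ),
      ∑ k : K, (ρ (k : G)) ∘ₗ A ∘ₗ (σ k⁻¹) ≠ 0 := by
    by_contra hc
    push Not at hc
    have h1 := sum_mul_tr_eq_zero (fun k : K => ρ (k : G)) (fun k : K => σ k⁻¹) hc
    have h2 : Cfsg.classInner (fun k : K => ρ.character k) σ.character = 0 := by
      rw [CharBasics.classInner_eq, Finset.sum_congr rfl fun (k : K) _ => show ρ.character (k : G) *
        conj (σ.character k) = _ by rw [← CharBasics.apply_inv ⟨m, σ, rfl⟩]]
      exact mul_eq_zero_of_right _ h1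
    rw [CharBasics.classInner_comm, ← CharBasics.classInner_indFun K σ.character (CharBasics.isClassFunction
      (CharBasics.isCharacter_of_irr hχ)), h, CharBasics.classInner_self hχ, map_one] at h2
    exact one_ne_zero h2
  set J := ∑ k : K, (ρ (k : G)) ∘ₗ A₀ ∘ₗ (σ k⁻¹) with hJdef
  have hJ : ∀ (k : K) (u : Fin m → ℂ), ρ (k : G) (J u) = J (σ k u) := by
    intro k u
    simp only [hJdef, LinearMap.sum_apply, map_sum, LinearMap.comp_apply]
    refine Fintype.sum_equiv (Equiv.mulLeft k) _ _ fun x => ?_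
    simp only [Equiv.coe_mulLeft, Subgroup.coe_mul, mul_inv_rev, map_mul, Module.End.mul_apply]
    congr 3
    rw [← Module.End.mul_apply (σ x⁻¹), ← map_mul, ← Module.End.mul_apply, ← map_mul, mul_assoc, inv_mul_cancel, mul_one]
  let Φ : (G ⧸ K → Fin m → ℂ) →ₗ[ℂ] (Fin n → ℂ) := ∑ x : G ⧸ K, (ρ x.out ∘ₗ J) ∘ₗ LinearMap.proj x
  have hΦ : ∀ (x : G ⧸ K) (u : Fin m → ℂ), Φ (Pi.single x u) = ρ x.out (J u) := by
    intro x u
    simp only [Φ, LinearMap.sum_apply, LinearMap.comp_apply, LinearMap.proj_apply]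
    rw [Finset.sum_eq_single x (fun y _ hy => by rw [Pi.single_eq_of_ne hy, map_zero, map_zero]) (by simp),
      Pi.single_eq_same]
  have hmove : ∀ (g : G) (x : G ⧸ K) (u : Fin m → ℂ), ∃ u', ρ g (ρ x.out (J u)) = ρ (g • x).out (J u') := by
    intro g x u
    have hmem : (g • x).out⁻¹ * (g * x.out) ∈ K := by
      rw [← QuotientGroup.eq, QuotientGroup.out_eq', ← smul_eq_mul g x.out, ← MulAction.Quotient.smul_coe,
        QuotientGroup.out_eq']
    refine ⟨σ ⟨_, hmem⟩ u, ?_⟩
    rw [← hJ, ← Module.End.mul_apply (ρ g), ← map_mul, ← Module.End.mul_apply (ρ (g • x).out), ← map_mul,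
      mul_inv_cancel_left]
  have hrange : LinearMap.range Φ = ⊤ := by
    let W : Subrepresentation ρ := ⟨LinearMap.range Φ, fun g v hv => by
      obtain ⟨f, rfl⟩ := hv
      rw [← Finset.univ_sum_single f, map_sum, map_sum]
      refine Submodule.sum_mem _ fun x _ => ?_
      obtain ⟨u', hu'⟩ := hmove g x (f x)
      rw [hΦ, hu', ← hΦ]
      exact LinearMap.mem_range_self _ _⟩
    haveI : IsSimpleOrder (Subrepresentation ρ) := hρ
    rcases eq_bot_or_eq_top W with hW | hW
    · exfalso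
      have h0 : LinearMap.range Φ = ⊥ := congrArg Subrepresentation.toSubmodule hW
      refine hA₀ (LinearMap.ext fun u => ?_)
      have h1 := hΦ ((1 : G) : G ⧸ K) u
      rw [LinearMap.range_eq_bot.1 h0, LinearMap.zero_apply] at h1
      have := congrArg (ρ ((1 : G) : G ⧸ K).out⁻¹) h1
      rw [map_zero, ← Module.End.mul_apply, inv_rho, Module.End.one_apply] at this
      exact this.symm
    · exact congrArg Subrepresentation.toSubmodule hW
  have hdim : Module.finrank ℂ (G ⧸ K → Fin m → ℂ) = Module.finrank ℂ (Fin n → ℂ) := by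
    have h1 := congrFun h 1
    rw [CharBasics.indFun_apply_one, Representation.char_one, Representation.char_one] at h1
    rw [Module.finrank_pi_fintype, Module.finrank_fin_fun, Finset.sum_const, smul_eq_mul,
      Finset.card_univ, ← Nat.card_eq_fintype_card, ← Subgroup.index]
    rw [Module.finrank_fin_fun, Module.finrank_fin_fun] at h1
    rw [Module.finrank_fin_fun]
    exact_mod_cast h1
  have hbij : Function.Bijective Φ :=
    ⟨(LinearMap.injective_iff_surjective_of_finrank_eq_finrank hdim).2 (LinearMap.range_eq_top.1 hrange),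
      LinearMap.range_eq_top.1 hrange⟩
  let Φe := LinearEquiv.ofBijective Φ hbij
  let P : G ⧸ K → End ℂ (Fin n → ℂ) := fun x =>
    Φ ∘ₗ (LinearMap.single ℂ (fun _ => Fin m → ℂ) x ∘ₗ LinearMap.proj x) ∘ₗ Φe.symm.toLinearMap
  have hP : ∀ (x : G ⧸ K) (f : G ⧸ K → Fin m → ℂ), P x (Φ f) = Φ (Pi.single x (f x)) := by
    intro x f
    show Φ (Pi.single x (Φe.symm (Φ f) x)) = _
    rw [show Φe.symm (Φ f) = f from Φe.symm_apply_apply f]
  have hext : ∀ F H : End ℂ (Fin n → ℂ), (∀ f, F (Φ f) = H (Φ f)) → F = H := fun F H e =>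
    LinearMap.ext fun v => by obtain ⟨f, rfl⟩ := hbij.2 v; exact e f
  have hone : ∀ (g : G) (x : G ⧸ K) (f : G ⧸ K → Fin m → ℂ), ρ g (P x (Φ f)) = P (g • x) (ρ g (Φ f)) := by
    intro g x f
    choose u hu using fun y => hmove g y (f y)
    have h1 : ρ g (Φ f) = Φ (∑ y, Pi.single (g • y) (u y)) := by
      conv_lhs => rw [← Finset.univ_sum_single f]
      rw [map_sum, map_sum, map_sum]
      exact Finset.sum_congr rfl fun y _ => by rw [hΦ, hΦ, hu]
    rw [hP, hΦ, hu, h1, hP, hΦ, Finset.sum_apply,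
      Finset.sum_eq_single x (fun y _ hy => Pi.single_eq_of_ne (fun e => hy (MulAction.injective g e).symm) _) (by simp),
      Pi.single_eq_same]
  refine ⟨P, fun x => hext _ _ fun f => ?_, fun x y hxy => hext _ _ fun f => ?_, fun {inst} => hext _ _ fun f => ?_,
    fun g x => hext _ _ fun f => ?_, fun x h0 => hA₀ (LinearMap.ext fun u => ?_)⟩
  · rw [Module.End.mul_apply, hP, hP, Pi.single_eq_same]
  · rw [Module.End.mul_apply, hP, hP, Pi.single_eq_of_ne hxy, Pi.single_zero, map_zero, LinearMap.zero_apply]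
  · rw [LinearMap.sum_apply, Finset.sum_congr rfl fun x _ => hP x f, ← map_sum, Module.End.one_apply]
    congr 1
    convert Finset.univ_sum_single f
  · exact hone g x f
  · have := hP x (Pi.single x u)
    rw [h0, LinearMap.zero_apply, Pi.single_eq_same, hΦ] at this
    have h2 := congrArg (ρ x.out⁻¹) this
    rw [map_zero, ← Module.End.mul_apply, inv_rho, Module.End.one_apply] at h2
    exact h2.symm

/-- Coarsening. -/
theorem Imp.coarsen [Finite G] {ρ : Representation ℂ G S} {K : Subgroup G} {P : G ⧸ K → End ℂ S} (hP : Imp ρ K P)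
    {K₁ : Subgroup G} (hle : K ≤ K₁) : ∃ P₁ : G ⧸ K₁ → End ℂ S, Imp ρ K₁ P₁ := by
  classical
  letI := Fintype.ofFinite (G ⧸ K)
  let π : G ⧸ K → G ⧸ K₁ := Subgroup.quotientMapOfLE hle
  have hπ : ∀ (g : G) x, π (g • x) = g • π x := by
    intro g x
    induction x using QuotientGroup.induction_on with
    | H a => rfl
  let P₁ : G ⧸ K₁ → End ℂ S := fun y => ∑ x ∈ Finset.univ.filter (fun x => π x = y), P x
  have hmul : ∀ x y, P x * P₁ y = if π x = y then P x else 0 := by
    intro x y
    rw [Finset.mul_sum]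
    split_ifs with h
    · rw [Finset.sum_eq_single x (fun z _ hz => hP.orth x z hz.symm) (fun hx => absurd (Finset.mem_filter.2
        ⟨Finset.mem_univ x, h⟩) hx), hP.idem]
    · exact Finset.sum_eq_zero fun z hz => hP.orth x z fun e => h (e ▸ (Finset.mem_filter.1 hz).2)
  refine ⟨P₁, fun y => ?_, fun y y' hy => ?_, fun {inst} => ?_, fun g y => ?_, fun y h0 => ?_⟩
  · show (∑ x ∈ _, P x) * P₁ y = _
    rw [Finset.sum_mul]
    exact Finset.sum_congr rfl fun x hx => by rw [hmul, if_pos (Finset.mem_filter.1 hx).2]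
  · show (∑ x ∈ _, P x) * P₁ y' = _
    rw [Finset.sum_mul]
    exact Finset.sum_eq_zero fun x hx => by rw [hmul, if_neg ((Finset.mem_filter.1 hx).2.symm ▸ hy)]
  · rw [← hP.sum]
    convert Finset.sum_fiberwise Finset.univ π P
  · show ρ g * (∑ x ∈ _, P x) = (∑ x ∈ _, P x) * ρ g
    rw [Finset.mul_sum, Finset.sum_mul]
    refine Finset.sum_equiv (MulAction.toPerm g) (fun x => ?_) fun x _ => hP.equiv g x
    simp [hπ]
  · induction y using QuotientGroup.induction_on with
    | H a =>
      refine hP.ne (a : G ⧸ K) ?_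
      have := hmul (a : G ⧸ K) (a : G ⧸ K₁)
      rw [h0, mul_zero, if_pos (show π (a : G ⧸ K) = (a : G ⧸ K₁) from rfl)] at this
      exact this.symm

end CfsgLib.Berger
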