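import Cfsg.Agent.Berger.Basic

/-!
The algebra of shifts attached to a system of imprimitivity and a normal supplement of a block stabilizer which
is abelian modulo the kernel of the action.
-/

set_option autoImplicit false

namespace CfsgLib.Berger

open Module LinearMap

variable {S : Type*} [AddCommGroup S] [Module ℂ S] {G : Type*} [Group G]

local notation "tr" => LinearMap.trace ℂ S

/-- The hypotheses. -/
structure Setup (ρ : Representation ℂ G S) (K : Subgroup G) (P : G ⧸ K → End ℂ S) (M : Subgroup G) : Prop where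
  imp : Imp ρ K P
  normal : M.Normal
  sup : ∀ x : G ⧸ K, ∃ m ∈ M, m • ((1 : G) : G ⧸ K) = x
  comm : ∀ a ∈ M, ∀ b ∈ M, ∀ x : G ⧸ K, a • b • x = b • a • x
  core : K.normalCore ≤ M
  centerM : ∀ z ∈ cent ρ (M : Set G), (∀ b ∈ cent ρ (M : Set G), z * b = b * z) → ∃ c : ℂ, z = c • 1
  centerN : ∀ z ∈ cent ρ (K.normalCore : Set G),
    (∀ b ∈ cent ρ (K.normalCore : Set G), z * b = b * z) → ∃ c : ℂ, z = c • 1

variable {ρ : Representation ℂ G S} {K : Subgroup G} {P : G ⧸ K → End ℂ S} {M : Subgroup G}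

/-- The algebra of degree one. -/
def B₀ (ρ : Representation ℂ G S) (P : G ⧸ K → End ℂ S) (M : Subgroup G) : Subalgebra ℂ (End ℂ S) :=
  Subalgebra.centralizer ℂ (ρ '' M ∪ Set.range P)

theorem mem_B₀ {a : End ℂ S} : a ∈ B₀ ρ P M ↔ a ∈ cent ρ (M : Set G) ∧ Deg P a 1 := by
  simp [B₀, mem_cent, deg_one, Subalgebra.mem_centralizer_iff, or_imp, forall_and]

/-- The algebra of shifts. -/
def Rf (ρ : Representation ℂ G S) (P : G ⧸ K → End ℂ S) (M : Subgroup G) : Subalgebra ℂ (End ℂ S) :=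
  Subalgebra.centralizer ℂ (ρ '' M ∪ (B₀ ρ P M : Set (End ℂ S)))

theorem mem_Rf {a : End ℂ S} :
    a ∈ Rf ρ P M ↔ a ∈ cent ρ (M : Set G) ∧ ∀ b ∈ B₀ ρ P M, b * a = a * b := by
  simp [Rf, mem_cent, Subalgebra.mem_centralizer_iff, or_imp, forall_and]

theorem normalCore_smul {n : G} (hn : n ∈ K.normalCore) (x : G ⧸ K) : n • x = x := by
  obtain ⟨g, rfl⟩ := QuotientGroup.mk_surjective x
  show ((n * g : G) : G ⧸ K) = g
  rw [QuotientGroup.eq]
  have := K.normalCore.inv_mem ((Subgroup.normalCore_normal K).conj_mem n hn g⁻¹)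
  exact Subgroup.normalCore_le K (by convert this using 1; group)

theorem mem_normalCore_of_smul {n : G} (h : ∀ x : G ⧸ K, n • x = x) : n ∈ K.normalCore := by
  rw [K.normalCore_eq_ker]
  exact MonoidHom.mem_ker.2 (Equiv.ext h)

namespace Setup

variable (h : Setup ρ K P M)
include h

theorem fix {m : G} (hm : m ∈ M) (hx : m • ((1 : G) : G ⧸ K) = ((1 : G) : G ⧸ K)) (x : G ⧸ K) : m • x = x := by
  obtain ⟨a, ha, rfl⟩ := h.sup x
  rw [h.comm m hm a ha, hx]

theorem mem_core {m : G} (hm : m ∈ M) (hx : m • ((1 : G) : G ⧸ K) = ((1 : G) : G ⧸ K)) : m ∈ K.normalCore :=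
  mem_normalCore_of_smul (h.fix hm hx)

theorem moves {m : G} (hm : m ∈ M) (hx : m • ((1 : G) : G ⧸ K) ≠ ((1 : G) : G ⧸ K)) (x : G ⧸ K) : m • x ≠ x := by
  intro e
  obtain ⟨a, ha, rfl⟩ := h.sup x
  rw [h.comm m hm a ha] at e
  exact hx (MulAction.injective a e)

theorem ext' {m m' : G} (hm : m ∈ M) (hm' : m' ∈ M)
    (hx : m • ((1 : G) : G ⧸ K) = m' • ((1 : G) : G ⧸ K)) (x : G ⧸ K) : m • x = m' • x := by
  obtain ⟨a, ha, rfl⟩ := h.sup x
  rw [h.comm m hm a ha, h.comm m' hm' a ha, hx]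

/-- A representative in `M` of a block. -/
noncomputable def μ (x : G ⧸ K) : G := (h.sup x).choose

theorem μ_mem (x : G ⧸ K) : h.μ x ∈ M := (h.sup x).choose_spec.1

theorem μ_smul (x : G ⧸ K) : h.μ x • ((1 : G) : G ⧸ K) = x := (h.sup x).choose_spec.2

theorem comp_mem [Fintype (G ⧸ K)] {b : End ℂ S} (hb : b ∈ cent ρ (M : Set G)) {g : G} (hg : g ∈ M) :
    comp P b g ∈ cent ρ (M : Set G) := by
  rw [mem_cent'] at hb ⊢
  intro m hm
  rw [comp, map_sum]
  refine Fintype.sum_equiv (MulAction.toPerm m) _ _ fun x => ?_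
  rw [map_mul, map_mul, h.imp.equiv', h.imp.equiv', hb m hm, h.comm m hm g hg, MulAction.toPerm_apply]

theorem sum_comp [Fintype (G ⧸ K)] (b : End ℂ S) : ∑ y, comp P b (h.μ y) = b := by
  simp only [comp]
  rw [Finset.sum_comm]
  conv_rhs => rw [← mul_one b, ← h.imp.sum, Finset.mul_sum]
  refine Finset.sum_congr rfl fun x _ => ?_
  rw [← Finset.sum_mul, ← Finset.sum_mul]
  congr 1
  conv_rhs => rw [← one_mul b, ← h.imp.sum]
  congr 1
  have hinj : Function.Injective fun y => h.μ y • x := by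
    intro y z e
    obtain ⟨a, ha, hax⟩ := h.sup x
    simp only [← hax] at e
    rw [h.comm _ (h.μ_mem y) a ha, h.comm _ (h.μ_mem z) a ha, h.μ_smul, h.μ_smul] at e
    exact MulAction.injective a e
  exact Fintype.sum_equiv (Equiv.ofBijective _ (Finite.injective_iff_bijective.1 hinj)) _ _ fun y => rfl

/-- Extension of an operator from the base block. -/
noncomputable def extend [Fintype (G ⧸ K)] (y : G ⧸ K) (Y : End ℂ S) : End ℂ S :=
  ∑ x, cj ρ (h.μ x) (P y * Y * P ((1 : G) : G ⧸ K))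

theorem deg_extend [Fintype (G ⧸ K)] (y : G ⧸ K) (Y : End ℂ S) : Deg P (h.extend y Y) (h.μ y) := by
  intro z
  have e : ∀ x, h.μ x • y = h.μ y • x := fun x => by
    conv_lhs => rw [← h.μ_smul y, h.comm _ (h.μ_mem x) _ (h.μ_mem y), h.μ_smul]
  rw [extend, Finset.sum_mul, Finset.mul_sum, Finset.sum_eq_single z ?_ (by simp), Finset.sum_eq_single z ?_ (by simp)]
  · rw [map_mul, map_mul, h.imp.equiv', h.imp.equiv', h.μ_smul, e, mul_assoc _ (P z), h.imp.idem,
      ← mul_assoc (P _) (P _ * _), ← mul_assoc (P (h.μ y • z)), h.imp.idem]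
  · intro x _ hx
    rw [map_mul, map_mul, h.imp.equiv', e, ← mul_assoc, ← mul_assoc,
      h.imp.orth _ _ (fun e' => hx (MulAction.injective _ e').symm), zero_mul, zero_mul]
  · intro x _ hx
    rw [map_mul, map_mul, h.imp.equiv' _ ((1 : G) : G ⧸ K), h.μ_smul, mul_assoc, h.imp.orth x z hx, mul_zero]

theorem extend_block [Fintype (G ⧸ K)] (y : G ⧸ K) {Y : End ℂ S} (hY : Y ∈ cent ρ (K.normalCore : Set G)) :
    h.extend y Y * P ((1 : G) : G ⧸ K) = P y * Y * P ((1 : G) : G ⧸ K) := by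
  rw [extend, Finset.sum_mul, Finset.sum_eq_single ((1 : G) : G ⧸ K) ?_ (by simp)]
  · have hn : h.μ ((1 : G) : G ⧸ K) ∈ K.normalCore := h.mem_core (h.μ_mem _) (h.μ_smul _)
    rw [map_mul, map_mul, h.imp.equiv', h.imp.equiv', (mem_cent' ρ).1 hY _ hn, normalCore_smul hn,
      normalCore_smul hn, mul_assoc _ (P _), h.imp.idem]
  · intro x _ hx
    rw [map_mul, map_mul, h.imp.equiv' _ ((1 : G) : G ⧸ K), h.μ_smul, mul_assoc, h.imp.orth x _ hx, mul_zero]

theorem extend_mem [Fintype (G ⧸ K)] (y : G ⧸ K) {Y : End ℂ S} (hY : Y ∈ cent ρ (K.normalCore : Set G)) :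
    h.extend y Y ∈ cent ρ (M : Set G) := by
  rw [mem_cent']
  intro m hm
  rw [extend, map_sum]
  refine Fintype.sum_equiv (MulAction.toPerm m) _ _ fun x => ?_
  obtain ⟨n, hn, hmn⟩ : ∃ n, n ∈ K.normalCore ∧ m * h.μ x = h.μ (m • x) * n := by
    refine ⟨(h.μ (m • x))⁻¹ * (m * h.μ x), h.mem_core (M.mul_mem (M.inv_mem (h.μ_mem _))
      (M.mul_mem hm (h.μ_mem _))) ?_, by group⟩
    rw [mul_smul, mul_smul, h.μ_smul, inv_smul_eq_iff, h.μ_smul]
  rw [MulAction.toPerm_apply, ← cj_mul, hmn, cj_mul]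
  congr 1
  rw [map_mul, map_mul, h.imp.equiv', h.imp.equiv', (mem_cent' ρ).1 hY n hn, normalCore_smul hn, normalCore_smul hn]

theorem P_mem_centN (x : G ⧸ K) : P x ∈ cent ρ (K.normalCore : Set G) :=
  (mem_cent' ρ).2 fun n hn => by rw [h.imp.equiv', normalCore_smul hn]

theorem centM_le {a : End ℂ S} (ha : a ∈ cent ρ (M : Set G)) : a ∈ cent ρ (K.normalCore : Set G) :=
  (mem_cent' ρ).2 fun _ hn => (mem_cent' ρ).1 ha _ (h.core hn)

variable [FiniteDimensional ℂ S] [Finite G]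

theorem nd_B₀ {a : End ℂ S} (ha : a ∈ B₀ ρ P M) (h0 : ∀ b ∈ B₀ ρ P M, tr (a * b) = 0) : a = 0 := by
  letI := Fintype.ofFinite (G ⧸ K)
  obtain ⟨haM, ha1⟩ := mem_B₀.1 ha
  refine nd_cent ρ M a haM fun b hb => ?_
  rw [← tr_mul_comp h.imp ha1 b, inv_one]
  exact h0 _ (mem_B₀.2 ⟨h.comp_mem hb M.one_mem, deg_comp h.imp b 1⟩)

theorem nice_centN : Nice (cent ρ (K.normalCore : Set G)) := ⟨nd_cent ρ _, h.centerN⟩

theorem extend_mem_B₀ [Fintype (G ⧸ K)] {Y : End ℂ S} (hY : Y ∈ cent ρ (K.normalCore : Set G)) :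
    h.extend ((1 : G) : G ⧸ K) Y ∈ B₀ ρ P M := by
  refine mem_B₀.2 ⟨h.extend_mem _ hY, (h.deg_extend _ Y).congr fun x => ?_⟩
  rw [normalCore_smul (h.mem_core (h.μ_mem _) (h.μ_smul _)), one_smul]

theorem eq_zero_of_block {a : End ℂ S} (ha : a ∈ B₀ ρ P M) (h0 : a * P ((1 : G) : G ⧸ K) = 0) : a = 0 := by
  letI := Fintype.ofFinite (G ⧸ K)
  obtain ⟨haM, -⟩ := mem_B₀.1 ha
  rw [← mul_one a, ← h.imp.sum, Finset.mul_sum]
  refine Finset.sum_eq_zero fun x _ => ?_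
  rw [← h.μ_smul x, ← h.imp.equiv', ← (mem_cent' ρ).1 haM _ (h.μ_mem x), ← map_mul, h0, map_zero]

theorem center_B₀ {z : End ℂ S} (hz : z ∈ B₀ ρ P M) (hc : ∀ b ∈ B₀ ρ P M, z * b = b * z) :
    ∃ c : ℂ, z = c • 1 := by
  classical
  letI := Fintype.ofFinite (G ⧸ K)
  obtain ⟨hzM, hz1⟩ := mem_B₀.1 hz
  set P0 := P ((1 : G) : G ⧸ K) with hP0
  set z0 := z * P0 with hz0
  have hzP : P0 * z = z0 := by rw [hz0, (deg_one.1 hz1)]
  have hzN : z ∈ cent ρ (K.normalCore : Set G) := h.centM_le hzM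
  have key : ∀ X ∈ cent ρ (K.normalCore : Set G), z0 * X * P0 - P0 * X * z0 = 0 := by
    intro X hX
    have hb := h.extend_mem_B₀ hX
    have e1 : h.extend _ X * P0 = P0 * X * P0 := h.extend_block _ hX
    have e2 := congrArg (· * P0) (hc _ hb)
    simp only [mul_assoc, e1] at e2
    rw [← hz0, ← hzP, ← mul_assoc (h.extend _ X), e1] at e2
    rw [sub_eq_zero, hz0]
    calc z * P0 * X * P0 = z * (P0 * (X * P0)) := by simp only [mul_assoc]
      _ = P0 * X * P0 * z := e2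
      _ = P0 * X * (z * P0) := by rw [mul_assoc _ P0 z, hzP, hz0]
  suffices ∃ l : ℂ, z0 = l • P0 by
    obtain ⟨l, hl⟩ := this
    refine ⟨l, sub_eq_zero.1 (h.eq_zero_of_block ((B₀ ρ P M).sub_mem hz ((B₀ ρ P M).smul_mem (B₀ ρ P M).one_mem l)) ?_)⟩
    rw [sub_mul, ← hP0, smul_mul_assoc, one_mul, ← hz0, hl, sub_self]
  by_contra hcon
  push Not at hcon
  have hli : LinearIndependent ℂ ![P0, z0] := by
    refine (LinearIndependent.pair_iff' (h.imp.ne _)).2 fun l e => hcon l e.symm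
  have hz0N : z0 ∈ cent ρ (K.normalCore : Set G) := Subalgebra.mul_mem _ hzN (h.P_mem_centN _)
  have := h.nice_centN.indep ![P0, z0] hli Finset.univ ![z0, -P0]
    (fun i => by fin_cases i
                 · exact hz0N
                 · exact Subalgebra.neg_mem _ (h.P_mem_centN _))
    (fun X hX => by
      simp only [Fin.sum_univ_two, Matrix.cons_val_zero, Matrix.cons_val_one, neg_mul, ← sub_eq_add_neg]
      exact key X hX) 0 (Finset.mem_univ _)
  exact hcon 0 (by rw [zero_smul]; simpa using this)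

variable [Nontrivial S]

theorem deg_one_scalar {a : End ℂ S} (ha : a ∈ Rf ρ P M) (h1 : Deg P a 1) : ∃ c : ℂ, a = c • 1 := by
  obtain ⟨haM, hac⟩ := mem_Rf.1 ha
  exact h.center_B₀ (mem_B₀.2 ⟨haM, h1⟩) fun b hb => (hac b hb).symm

theorem exists_shift {g : G} (hg : g ∈ M) :
    ∃ r ∈ Rf ρ P M, ∃ r' ∈ Rf ρ P M, Deg P r g ∧ Deg P r' g⁻¹ ∧ r * r' = 1 ∧ r' * r = 1 := by
  classical
  letI := Fintype.ofFinite (G ⧸ K)
  letI := Fintype.ofFinite M
  obtain ⟨d, e, e', hd⟩ := exists_dual (A := B₀ ρ P M) fun a ha => h.nd_B₀ ha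
  obtain ⟨l, hl0, hl⟩ := hd.scalar fun a ha => h.center_B₀ ha
  have hcas : ∀ w ∈ cent ρ (M : Set G), ∀ v, Deg P w v →
      (∑ i, e' i * w * e i) ∈ Rf ρ P M ∧ Deg P (∑ i, e' i * w * e i) v := by
    intro w hw v hv
    refine ⟨mem_Rf.2 ⟨Subalgebra.sum_mem _ fun i _ => Subalgebra.mul_mem _ (Subalgebra.mul_mem _
      (mem_B₀.1 (hd.mem' i)).1 hw) (mem_B₀.1 (hd.mem i)).1, fun b hb => hd.comm_id w hb⟩, fun x => ?_⟩
    rw [Finset.sum_mul, Finset.mul_sum]
    refine Finset.sum_congr rfl fun i _ => ?_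
    have := (((mem_B₀.1 (hd.mem' i)).2.mul hv).mul (mem_B₀.1 (hd.mem i)).2) x
    rwa [one_mul, mul_one] at this
  have hge : ∀ x : G ⧸ K, h.μ (g • ((1 : G) : G ⧸ K)) • x = g • x := h.ext' (h.μ_mem _) hg (h.μ_smul _)
  obtain ⟨X, hX, hr⟩ : ∃ X ∈ cent ρ (K.normalCore : Set G),
      ∑ i, e' i * h.extend (g • ((1 : G) : G ⧸ K)) X * e i ≠ 0 := by
    by_contra hc
    push Not at hc
    set P0 := P ((1 : G) : G ⧸ K) with hP0
    set Py := P (g • ((1 : G) : G ⧸ K)) with hPy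
    have hli : LinearIndependent ℂ fun i => P0 * e i := by
      rw [Fintype.linearIndependent_iff]
      intro c hc' i
      refine Fintype.linearIndependent_iff.1 hd.li c (h.eq_zero_of_block (Subalgebra.sum_mem _ fun i _ =>
        Subalgebra.smul_mem _ (hd.mem i) _) ?_) i
      rw [← hc', Finset.sum_mul]
      refine Finset.sum_congr rfl fun i _ => ?_
      rw [smul_mul_assoc, deg_one.1 (mem_B₀.1 (hd.mem i)).2]
    have h0 := h.nice_centN.indep _ hli Finset.univ (fun i => e' i * Py)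
      (fun i => Subalgebra.mul_mem _ (h.centM_le (mem_B₀.1 (hd.mem' i)).1) (h.P_mem_centN _)) (fun X hX => by
        have := congrArg (· * P0) (hc X hX)
        simp only [zero_mul, Finset.sum_mul] at this
        rw [← this]
        refine Finset.sum_congr rfl fun i _ => ?_
        have e1 : h.extend (g • ((1 : G) : G ⧸ K)) X * P0 = Py * X * P0 := h.extend_block _ hX
        have e2 : e i * P0 = P0 * e i := (deg_one.1 (mem_B₀.1 (hd.mem i)).2 _).symm
        calc e' i * Py * X * (P0 * e i) = e' i * (Py * X * P0) * e i := by simp only [mul_assoc]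
          _ = e' i * h.extend (g • ((1 : G) : G ⧸ K)) X * (P0 * e i) := by rw [← e1]; simp only [mul_assoc]
          _ = _ := by rw [← e2]; simp only [mul_assoc])
    have hd0 : d ≠ 0 := by
      rintro rfl
      rw [Finset.univ_eq_empty, Finset.sum_empty] at hl
      exact hl0 (by simpa using (smul_eq_zero.1 hl.symm).resolve_right one_ne_zero)
    let i₀ : Fin d := ⟨0, Nat.pos_of_ne_zero hd0⟩
    have hi : e' i₀ * Py = 0 := h0 i₀ (Finset.mem_univ _)
    refine hd.li'.ne_zero i₀ (h.eq_zero_of_block (hd.mem' i₀) ?_)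
    have := congrArg (cj ρ g⁻¹) hi
    rw [map_mul, map_zero, hPy, h.imp.equiv', inv_smul_smul,
      (mem_cent' ρ).1 (mem_B₀.1 (hd.mem' i₀)).1 _ (M.inv_mem hg)] at this
    exact this
  obtain ⟨hrR, hrd⟩ := hcas _ (h.extend_mem _ hX) g ((h.deg_extend _ X).congr hge)
  set r := ∑ i, e' i * h.extend (g • ((1 : G) : G ⧸ K)) X * e i
  obtain ⟨w, hwM, hw⟩ : ∃ w ∈ cent ρ (M : Set G), tr (r * w) ≠ 0 := by
    by_contra hc
    push Not at hc
    exact hr (nd_cent ρ M r (mem_Rf.1 hrR).1 hc)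
  obtain ⟨hsR, hsd⟩ := hcas _ (h.comp_mem hwM (M.inv_mem hg)) g⁻¹ (deg_comp h.imp w g⁻¹)
  set r' := ∑ i, e' i * comp P w g⁻¹ * e i with hr'
  have h1 : Deg P (r * r') 1 := by simpa using hrd.mul hsd
  obtain ⟨c, hc⟩ := h.deg_one_scalar ((Rf ρ P M).mul_mem hrR hsR) h1
  have htr : tr (r * r') = l * tr (r * w) := by
    rw [← tr_mul_comp h.imp hrd w, hr', Finset.mul_sum, map_sum]
    calc ∑ i, tr (r * (e' i * comp P w g⁻¹ * e i)) = ∑ i, tr (r * comp P w g⁻¹ * (e i * e' i)) := by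
          refine Finset.sum_congr rfl fun i _ => ?_
          rw [mul_assoc (e' i), ← mul_assoc r, ← (mem_Rf.1 hrR).2 _ (hd.mem' i), mul_assoc (e' i),
            trace_mul_comm ℂ (e' i)]
          simp only [mul_assoc]
      _ = tr (r * comp P w g⁻¹ * ∑ i, e i * e' i) := by rw [Finset.mul_sum, map_sum]
      _ = _ := by rw [hl, mul_smul_comm, mul_one, map_smul, smul_eq_mul]
  have hc0 : c ≠ 0 := fun h0 => mul_ne_zero hl0 hw (by rw [← htr, hc, h0, zero_smul, map_zero])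
  have hright : r * (c⁻¹ • r') = 1 := by rw [mul_smul_comm, hc, smul_smul, inv_mul_cancel₀ hc0, one_smul]
  exact ⟨r, hrR, c⁻¹ • r', (Rf ρ P M).smul_mem hsR _, hrd,
    fun x => by rw [smul_mul_assoc, hsd x, mul_smul_comm], hright, mul_eq_one_comm.1 hright⟩

theorem comp_mem_Rf [Fintype (G ⧸ K)] {a : End ℂ S} (ha : a ∈ Rf ρ P M) {g : G} (hg : g ∈ M) :
    comp P a g ∈ Rf ρ P M := by
  obtain ⟨haM, hac⟩ := mem_Rf.1 ha
  refine mem_Rf.2 ⟨h.comp_mem haM hg, fun b hb => ?_⟩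
  have hb1 := deg_one.1 (mem_B₀.1 hb).2
  rw [comp, Finset.mul_sum, Finset.sum_mul]
  refine Finset.sum_congr rfl fun x _ => ?_
  calc b * (P (g • x) * a * P x) = P (g • x) * (b * a) * P x := by
        rw [← mul_assoc, ← mul_assoc, ← hb1]; simp only [mul_assoc]
    _ = P (g • x) * a * P x * b := by rw [hac b hb]; simp only [mul_assoc]; rw [← hb1]

/-- Every shift is a multiple of the chosen one. -/
theorem deg_smul {g : G} {r r' a : End ℂ S} (hr' : r' ∈ Rf ρ P M) (hrd : Deg P r' g⁻¹) (hr : r' * r = 1)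
    (ha : a ∈ Rf ρ P M) (had : Deg P a g) : ∃ c : ℂ, a = c • r := by
  have h1 : Deg P (a * r') 1 := by simpa using had.mul hrd
  obtain ⟨c, hc⟩ := h.deg_one_scalar ((Rf ρ P M).mul_mem ha hr') h1
  exact ⟨c, by rw [← mul_one a, ← hr, ← mul_assoc, hc, smul_mul_assoc, one_mul]⟩

theorem nice_Rf : Nice (Rf ρ P M) := by
  classical
  letI := Fintype.ofFinite (G ⧸ K)
  letI := Fintype.ofFinite M
  refine ⟨fun a ha h0 => ?_, fun z hz hc => ?_⟩
  · obtain ⟨d, e, e', hd⟩ := exists_dual (A := B₀ ρ P M) fun a ha => h.nd_B₀ ha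
    obtain ⟨l, hl0, hl⟩ := hd.scalar fun a ha => h.center_B₀ ha
    obtain ⟨haM, hac⟩ := mem_Rf.1 ha
    refine nd_cent ρ M a haM fun w hw => ?_
    have hR : (∑ i, e' i * w * e i) ∈ Rf ρ P M := mem_Rf.2 ⟨Subalgebra.sum_mem _ fun i _ => Subalgebra.mul_mem _
      (Subalgebra.mul_mem _ (mem_B₀.1 (hd.mem' i)).1 hw) (mem_B₀.1 (hd.mem i)).1, fun b hb => hd.comm_id w hb⟩
    have h1 := h0 _ hR
    rw [Finset.mul_sum, map_sum, Finset.sum_congr rfl fun i _ => show tr (a * (e' i * w * e i)) =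
      tr (a * w * (e i * e' i)) by
        rw [mul_assoc (e' i), ← mul_assoc a, ← hac _ (hd.mem' i), mul_assoc (e' i), trace_mul_comm ℂ (e' i)]
        simp only [mul_assoc],
      ← map_sum, ← Finset.mul_sum, hl, mul_smul_comm, mul_one, map_smul, smul_eq_mul] at h1
    exact (mul_eq_zero.1 h1).resolve_left hl0
  · obtain ⟨hzM, hzc⟩ := mem_Rf.1 hz
    refine h.centerM z hzM fun b hb => ?_
    have : ∀ y, z * comp P b (h.μ y) = comp P b (h.μ y) * z := by
      intro y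
      obtain ⟨r, hr, r', hr', -, hd', -, hrr⟩ := h.exists_shift (h.μ_mem y)
      have h1 : comp P b (h.μ y) * r' ∈ B₀ ρ P M :=
        mem_B₀.2 ⟨Subalgebra.mul_mem _ (h.comp_mem hb (h.μ_mem y)) (mem_Rf.1 hr').1,
          by simpa using (deg_comp h.imp b (h.μ y)).mul hd'⟩
      calc z * comp P b (h.μ y) = z * (comp P b (h.μ y) * r') * r := by rw [mul_assoc, mul_assoc, hrr, mul_one]
        _ = comp P b (h.μ y) * r' * (z * r) := by rw [← hzc _ h1, mul_assoc]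
        _ = comp P b (h.μ y) * r' * (r * z) := by rw [hc r hr]
        _ = comp P b (h.μ y) * z := by rw [mul_assoc, ← mul_assoc r', hrr, one_mul]
    rw [← h.sum_comp b, Finset.mul_sum, Finset.sum_mul]
    exact Finset.sum_congr rfl fun y _ => this y

theorem cj_mem_B₀ (g : G) {a : End ℂ S} (ha : a ∈ B₀ ρ P M) : cj ρ g a ∈ B₀ ρ P M := by
  obtain ⟨haM, ha1⟩ := mem_B₀.1 ha
  haveI := h.normal
  exact mem_B₀.2 ⟨cj_mem_cent ρ g haM, by simpa using ha1.conj h.imp g⟩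

theorem cj_mem_Rf (g : G) {a : End ℂ S} (ha : a ∈ Rf ρ P M) : cj ρ g a ∈ Rf ρ P M := by
  obtain ⟨haM, hac⟩ := mem_Rf.1 ha
  haveI := h.normal
  refine mem_Rf.2 ⟨cj_mem_cent ρ g haM, fun b hb => ?_⟩
  have hb' : b = cj ρ g (cj ρ g⁻¹ b) := by rw [← cj_mul, mul_inv_cancel, cj_one]
  rw [hb', ← map_mul, ← map_mul, hac _ (h.cj_mem_B₀ g⁻¹ hb)]

theorem cj_Rf_eq {n : G} (hn : n ∈ M) {a : End ℂ S} (ha : a ∈ Rf ρ P M) : cj ρ n a = a :=
  (mem_cent' ρ).1 (mem_Rf.1 ha).1 n hn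

end Setup

end CfsgLib.Berger
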