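import Cfsg.Agent.Berger.Shifts

/-!
A system of imprimitivity with larger kernel: the implementers of a `q`-section acting on the algebra of shifts
commute, and their common eigenspaces form a new system of imprimitivity.
-/

set_option autoImplicit false

namespace CfsgLib.Berger

open Module LinearMap

variable {S : Type*} [AddCommGroup S] [Module ℂ S] [FiniteDimensional ℂ S] [Nontrivial S]
  {G : Type*} [Group G] [Finite G]

local notation "tr" => LinearMap.trace ℂ S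

variable {ρ : Representation ℂ G S} {K : Subgroup G} {P : G ⧸ K → End ℂ S} {M : Subgroup G}

omit [FiniteDimensional ℂ S] [Finite G] in
theorem smul_one_inj {a b : ℂ} (h : a • (1 : End ℂ S) = b • 1) : a = b := by
  obtain ⟨v, hv⟩ := exists_ne (0 : S)
  have := LinearMap.congr_fun h v
  exact smul_left_injective ℂ hv this

namespace Setup

variable (h : Setup ρ K P M)
include h

theorem exists_implementer (y : G) :
    ∃ U ∈ Rf ρ P M, ∃ U' ∈ Rf ρ P M, U * U' = 1 ∧ U' * U = 1 ∧ ∀ a ∈ Rf ρ P M, a * U = U * cj ρ y a :=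
  h.nice_Rf.exists_implementer (cj ρ y) fun _ ha => h.cj_mem_Rf y ha

theorem implementer_unique {y : G} {U U' V : End ℂ S} (hU'R : U' ∈ Rf ρ P M) (hUU' : U * U' = 1) (hU'U : U' * U = 1)
    (hU : ∀ a ∈ Rf ρ P M, a * U = U * cj ρ y a) (hVR : V ∈ Rf ρ P M)
    (hV : ∀ a ∈ Rf ρ P M, a * V = V * cj ρ y a) : ∃ s : ℂ, V = s • U := by
  obtain ⟨s, hs⟩ := h.nice_Rf.center (V * U') ((Rf ρ P M).mul_mem hVR hU'R) fun a ha => by
    have : cj ρ y a * U' = U' * a := by
      calc cj ρ y a * U' = U' * U * cj ρ y a * U' := by rw [hU'U, one_mul]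
        _ = U' * (a * U) * U' := by rw [mul_assoc U' U, ← hU a ha]
        _ = U' * a := by rw [mul_assoc, mul_assoc, hUU', mul_one]
    rw [mul_assoc, ← this, ← mul_assoc, ← hV a ha, mul_assoc]
  exact ⟨s, by rw [← mul_one V, ← hU'U, ← mul_assoc, hs, smul_mul_assoc, one_mul]⟩

/-- The trace of an implementer does not vanish. -/
theorem tr_ne_zero {p q : ℕ} (hpq : p.Coprime q) (hp : ∀ m ∈ M, ∃ a : ℕ, m ^ p ^ a ∈ K.normalCore)
    {y : G} (hy : ∃ b : ℕ, y ^ q ^ b ∈ K.normalCore) {U U' : End ℂ S} (hUU' : U * U' = 1) (hU'U : U' * U = 1)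
    (hUR : U ∈ Rf ρ P M) (hU'R : U' ∈ Rf ρ P M) (hU : ∀ a ∈ Rf ρ P M, a * U = U * cj ρ y a) : tr U ≠ 0 := by
  classical
  letI := Fintype.ofFinite (G ⧸ K)
  choose r hr r' hr' hrd hrd' hrr hrr' using fun x => h.exists_shift (h.μ_mem x)
  set T : G ⧸ K → End ℂ S := fun x => r' x * U' * r x with hT
  have hcomm : ∀ g ∈ M, ∀ a ∈ Rf ρ P M, Deg P a g → (∑ x, T x) * a = a * ∑ x, T x := by
    intro g hg a ha had
    rw [Finset.sum_mul, Finset.mul_sum]
    refine Fintype.sum_equiv (MulAction.toPerm g) _ _ fun x => ?_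
    rw [MulAction.toPerm_apply]
    have hd1 : Deg P (r x * a) (h.μ (g • x)) := ((hrd x).mul had).congr (h.ext' (M.mul_mem (h.μ_mem x) hg)
      (h.μ_mem _) (by rw [mul_smul, h.comm _ (h.μ_mem x) g hg, h.μ_smul, h.μ_smul]))
    obtain ⟨c, hc⟩ := h.deg_smul (hr' (g • x)) (hrd' _) (hrr' _) ((Rf ρ P M).mul_mem (hr x) ha) hd1
    have h2 : a * r' (g • x) = c • r' x := by
      calc a * r' (g • x) = r' x * (r x * a) * r' (g • x) := by rw [← mul_assoc (r' x), hrr', one_mul]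
        _ = c • r' x := by rw [hc, mul_smul_comm, smul_mul_assoc, mul_assoc, hrr, mul_one]
    calc T x * a = r' x * U' * (r x * a) := by simp only [hT, mul_assoc]
      _ = (c • r' x) * U' * r (g • x) := by simp only [hc, mul_smul_comm, smul_mul_assoc]
      _ = a * T (g • x) := by rw [← h2]; simp only [hT, mul_assoc]
  obtain ⟨s, hs⟩ := h.nice_Rf.center (∑ x, T x)
    (Subalgebra.sum_mem _ fun x _ => Subalgebra.mul_mem _ (Subalgebra.mul_mem _ (hr' x) hU'R) (hr x))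
    (fun a ha => by
      rw [← h.sum_comp a, Finset.mul_sum, Finset.sum_mul]
      exact Finset.sum_congr rfl fun x _ =>
        hcomm _ (h.μ_mem x) _ (h.comp_mem_Rf ha (h.μ_mem x)) (deg_comp h.imp a _))
  have hval : ∀ x, tr (T x * U) = if (y * h.μ x * y⁻¹) • ((1 : G) : G ⧸ K) = x then (Module.finrank ℂ S : ℂ) else 0 := by
    intro x
    have e1 : T x * U = r' x * cj ρ y (r x) := by
      calc T x * U = r' x * U' * (r x * U) := by simp only [hT, mul_assoc]
        _ = r' x * (U' * U) * cj ρ y (r x) := by rw [hU _ (hr x)]; simp only [mul_assoc]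
        _ = r' x * cj ρ y (r x) := by rw [hU'U, mul_one]
    have hM' : y * h.μ x * y⁻¹ ∈ M := h.normal.conj_mem _ (h.μ_mem x) y
    have hd : Deg P (cj ρ y (r x)) (y * h.μ x * y⁻¹) := (hrd x).conj h.imp y
    rw [e1]
    split_ifs with hx
    · have hd' : Deg P (cj ρ y (r x)) (h.μ x) := hd.congr (h.ext' hM' (h.μ_mem x) (by rw [hx, h.μ_smul]))
      obtain ⟨c, hc⟩ := h.deg_smul (hr' x) (hrd' x) (hrr' x) (h.cj_mem_Rf y (hr x)) hd'
      have hr0 : r x ≠ 0 := fun h0 => one_ne_zero (α := End ℂ S) (by rw [← hrr x, h0, zero_mul])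
      have hpow : ∀ n : ℕ, cj ρ (y ^ n) (r x) = c ^ n • r x := by
        intro n
        induction n with
        | zero => rw [pow_zero, cj_one, pow_zero, one_smul]
        | succ n ih => rw [pow_succ', cj_mul, ih, map_smul, hc, smul_smul, pow_succ]
      obtain ⟨b, hb⟩ := hy
      have hcq : c ^ q ^ b = 1 := by
        have := hpow (q ^ b)
        rw [h.cj_Rf_eq (h.core hb) (hr x)] at this
        exact smul_left_injective ℂ hr0 (by simp only [one_smul]; exact this.symm)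
      obtain ⟨a, ha⟩ := hp _ (h.μ_mem x)
      obtain ⟨t, ht⟩ := h.deg_one_scalar ((Rf ρ P M).pow_mem (hr x) (p ^ a))
        (((hrd x).pow (p ^ a)).congr fun z => by rw [normalCore_smul ha, one_smul])
      have ht0 : t ≠ 0 := fun h0 => by
        have hu : IsUnit (r x ^ p ^ a) := (isUnit_iff_exists.2 ⟨r' x, hrr x, hrr' x⟩).pow _
        rw [ht, h0, zero_smul] at hu
        exact not_isUnit_zero hu
      have hcp : c ^ p ^ a = 1 := by
        have := congrArg (cj ρ y) ht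
        rw [map_pow, hc, smul_pow, ht, smul_smul, map_smul, map_one] at this
        exact mul_right_cancel₀ ht0 ((smul_one_inj this).trans (one_mul t).symm)
      have hc1 : c = 1 := by
        have := pow_gcd_eq_one.2 ⟨hcq, hcp⟩
        rwa [Nat.Coprime.gcd_eq_one ((hpq.symm).pow b a), pow_one] at this
      rw [hc, hc1, one_smul, hrr', LinearMap.trace_one]
    · refine ((hrd' x).mul hd).tr_eq_zero h.imp (h.moves (M.mul_mem (M.inv_mem (h.μ_mem x)) hM') ?_)
      rw [mul_smul, ne_eq, inv_smul_eq_iff, h.μ_smul]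
      exact hx
  have hsum : ∑ x, tr (T x * U) = s * tr U := by
    rw [← map_sum, ← Finset.sum_mul, hs, smul_mul_assoc, one_mul, map_smul, smul_eq_mul]
  rw [Finset.sum_congr rfl fun x _ => hval x, Finset.sum_ite, Finset.sum_const_zero, add_zero,
    Finset.sum_const, nsmul_eq_mul] at hsum
  intro h0
  rw [h0, mul_zero, mul_eq_zero, Nat.cast_eq_zero, Nat.cast_eq_zero, Finset.card_eq_zero] at hsum
  rcases hsum with h1 | h1
  · have hn : h.μ ((1 : G) : G ⧸ K) ∈ K.normalCore := h.mem_core (h.μ_mem _) (h.μ_smul _)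
    refine Finset.eq_empty_iff_forall_notMem.1 h1 ((1 : G) : G ⧸ K) (Finset.mem_filter.2 ⟨Finset.mem_univ _, ?_⟩)
    exact normalCore_smul ((Subgroup.normalCore_normal K).conj_mem _ hn y) _
  · exact (Module.finrank_pos (R := ℂ) (M := S)).ne' h1

end Setup

/-! ### Spectral idempotents of an operator of finite order -/

section Dft

variable {A : Type*} [CommRing A] [Algebra ℂ A] {t : ℕ} [NeZero t] {ζ : ℂ}

/-- The spectral idempotent. -/
noncomputable def dft (ζ : ℂ) (w : A) (i : Fin t) : A := (t : ℂ)⁻¹ • ∑ j : Fin t, ((ζ ^ (i : ℕ)) • w) ^ (j : ℕ)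

theorem smul_dft (hζ : ζ ^ t = 1) {w : A} (hw : w ^ t = 1) (i : Fin t) :
    ((ζ ^ (i : ℕ)) • w) * dft ζ w i = dft ζ w i := by
  rw [dft, mul_smul_comm]
  congr 1
  have hv : ((ζ ^ (i : ℕ)) • w) ^ t = 1 := by
    rw [smul_pow, hw, ← pow_mul, mul_comm, pow_mul, hζ, one_pow, one_smul]
  rw [Finset.mul_sum, Finset.sum_congr rfl fun (j : Fin t) _ => (pow_succ' _ (j : ℕ)).symm]
  refine Fintype.sum_equiv (Equiv.addRight (1 : Fin t)) _ _ fun j => ?_
  simp only [Equiv.coe_addRight, Fin.val_add, Fin.coe_ofNat_eq_mod, Nat.add_mod_mod]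
  exact pow_eq_pow_mod _ hv

theorem dft_sum (hζ : IsPrimitiveRoot ζ t) (w : A) : ∑ i : Fin t, dft ζ w i = 1 := by
  simp only [dft, ← Finset.smul_sum]
  rw [Finset.sum_comm]
  have hj : ∀ j : Fin t, ∑ i : Fin t, ((ζ ^ (i : ℕ)) • w) ^ (j : ℕ) = (∑ i : Fin t, (ζ ^ (j : ℕ)) ^ (i : ℕ)) • w ^ (j : ℕ) := by
    intro j
    rw [Finset.sum_smul]
    refine Finset.sum_congr rfl fun i _ => ?_
    rw [smul_pow, ← pow_mul, ← pow_mul, mul_comm]
  rw [Finset.sum_congr rfl fun j _ => hj j, Finset.sum_eq_single (0 : Fin t) ?_ (by simp)]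
  · simp [smul_smul, inv_mul_cancel₀ (Nat.cast_ne_zero.2 (NeZero.ne t) : (t : ℂ) ≠ 0), Nat.cast_smul_eq_nsmul]
    rw [Algebra.smul_def, ← map_natCast (algebraMap ℂ A), ← map_mul,
      inv_mul_cancel₀ (Nat.cast_ne_zero.2 (NeZero.ne t) : (t : ℂ) ≠ 0), map_one]
  · intro j _ hj
    have h1 : ζ ^ (j : ℕ) ≠ 1 := hζ.pow_ne_one_of_pos_of_lt (fun e => hj (Fin.ext (by simpa using e))) j.isLt
    rw [Fin.sum_univ_eq_sum_range (fun i => (ζ ^ (j : ℕ)) ^ i) t, geom_sum_eq h1, ← pow_mul, mul_comm, pow_mul,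
      hζ.pow_eq_one, one_pow, sub_self, zero_div, zero_smul]

theorem dft_orth (hζ : IsPrimitiveRoot ζ t) {w : A} (hw : w ^ t = 1) {i k : Fin t} (hik : i ≠ k) :
    dft ζ w i * dft ζ w k = 0 := by
  have e1 := congrArg (· * dft ζ w k) (smul_dft hζ.pow_eq_one hw i)
  have e2 := congrArg (dft ζ w i * ·) (smul_dft hζ.pow_eq_one hw k)
  simp only [smul_mul_assoc, mul_smul_comm] at e1 e2
  rw [mul_left_comm (dft ζ w i) w, ← mul_assoc] at e2
  set X := dft ζ w i * dft ζ w k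
  set Y := w * dft ζ w i * dft ζ w k
  have e3 : (ζ ^ (i : ℕ) - ζ ^ (k : ℕ)) • Y = 0 := by rw [sub_smul, e1, e2, sub_self]
  have hne : ζ ^ (i : ℕ) - ζ ^ (k : ℕ) ≠ 0 :=
    sub_ne_zero.2 fun e => hik (Fin.ext (hζ.pow_inj i.isLt k.isLt e))
  rw [← e1, (smul_eq_zero.1 e3).resolve_left hne, smul_zero]

theorem dft_idem (hζ : ζ ^ t = 1) {w : A} (hw : w ^ t = 1) (i : Fin t) : dft ζ w i * dft ζ w i = dft ζ w i := by
  have h1 : ∀ j : ℕ, ((ζ ^ (i : ℕ)) • w) ^ j * dft ζ w i = dft ζ w i := by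
    intro j
    induction j with
    | zero => rw [pow_zero, one_mul]
    | succ j ih => rw [pow_succ, mul_assoc, smul_dft hζ hw, ih]
  conv_lhs => arg 1; rw [dft]
  rw [smul_mul_assoc, Finset.sum_mul, Finset.sum_congr rfl fun j _ => h1 _, Finset.sum_const, Finset.card_univ,
    Fintype.card_fin, ← Nat.cast_smul_eq_nsmul ℂ, smul_smul,
    inv_mul_cancel₀ (Nat.cast_ne_zero.2 (NeZero.ne t) : (t : ℂ) ≠ 0), one_smul]

theorem dft_shift (hζ : ζ ^ t = 1) (w : A) (i s : Fin t) : dft ζ ((ζ ^ (s : ℕ)) • w) i = dft ζ w (i + s) := by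
  rw [dft, dft]
  simp only [smul_smul, ← pow_add, Fin.val_add, ← pow_eq_pow_mod _ hζ]

end Dft

namespace Setup

variable (h : Setup ρ K P M)
include h

/-- A system of imprimitivity with larger kernel. -/
theorem exists_bigger {p q : ℕ} (hpq : p.Coprime q) (hp : ∀ m ∈ M, ∃ a : ℕ, m ^ p ^ a ∈ K.normalCore)
    (hschur : ∀ a ∈ cent ρ (Set.univ : Set G), ∃ c : ℂ, a = c • 1)
    (L : Subgroup G) [L.Normal] (hML : M ≤ L) (hq : ∀ y ∈ L ⊓ K, ∃ b : ℕ, y ^ q ^ b ∈ K.normalCore)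
    (hQ : ∀ x ∈ L ⊓ K, ∀ y ∈ L ⊓ K, x * y * x⁻¹ * y⁻¹ ∈ K.normalCore)
    {y₀ : G} (hy₀ : y₀ ∈ L ⊓ K) (hy₀' : y₀ ∉ K.normalCore) :
    ∃ (J : Subgroup G) (P' : G ⧸ J → End ℂ S), J ≠ ⊤ ∧ L ≤ J ∧ Imp ρ J P' := by
  classical
  letI := Fintype.ofFinite (G ⧸ K)
  letI := Fintype.ofFinite (L ⊓ K : Subgroup G)
  have hfac : ∀ g : G, ∃ m ∈ M, ∃ k ∈ K, g = m * k := by
    intro g
    obtain ⟨m, hm, hmg⟩ := h.sup (g : G ⧸ K)
    refine ⟨m, hm, m⁻¹ * g, ?_, by group⟩
    have : ((m : G) : G ⧸ K) = g := by rw [← hmg, MulAction.Quotient.smul_coe, smul_eq_mul, mul_one]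
    exact QuotientGroup.eq.1 this
  choose U hUR U' hU'R hUU' hU'U hU using fun y : (L ⊓ K : Subgroup G) => h.exists_implementer (y : G)
  have htr : ∀ y, tr (U y) ≠ 0 := fun y => h.tr_ne_zero hpq hp (hq y y.2) (hUU' y) (hU'U y) (hUR y) (hU'R y) (hU y)
  have hconj : ∀ (g : G) (y : (L ⊓ K : Subgroup G)), ∀ a ∈ Rf ρ P M,
      a * cj ρ g (U y) = cj ρ g (U y) * cj ρ (g * (y : G) * g⁻¹) a := by
    intro g y a ha
    have e := congrArg (cj ρ g) (hU y _ (h.cj_mem_Rf g⁻¹ ha))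
    rw [map_mul, map_mul, ← cj_mul, mul_inv_cancel, cj_one, ← cj_mul, ← cj_mul] at e
    rw [mul_assoc] at e
    rw [mul_assoc]
    exact e
  have hinv : ∀ x y : (L ⊓ K : Subgroup G), cj ρ (x : G) (U y) = U y := by
    intro x y
    obtain ⟨s, hs⟩ := h.implementer_unique (hU'R y) (hUU' y) (hU'U y) (hU y) (h.cj_mem_Rf (x : G) (hUR y))
      (fun a ha => by
        rw [hconj (x : G) y a ha]
        congr 1
        rw [show (x : G) * y * (x : G)⁻¹ = ((x : G) * y * (x : G)⁻¹ * (y : G)⁻¹) * y by group, cj_mul,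
          h.cj_Rf_eq (h.core (hQ x x.2 y y.2)) (h.cj_mem_Rf _ ha)])
    have ht := congrArg tr hs
    rw [tr_cj, map_smul, smul_eq_mul] at ht
    have hs1 : s = 1 := mul_right_cancel₀ (htr y) (ht.symm.trans (one_mul _).symm)
    rw [hs, hs1, one_smul]
  have hcomm : ∀ x y, U x * U y = U y * U x := fun x y => by
    rw [hU y _ (hUR x), hinv y x]
  -- normalisation
  set t := Nat.card G with ht
  haveI : NeZero t := ⟨Nat.card_pos.ne'⟩
  have hWex : ∀ y, ∃ z : ℂ, z ≠ 0 ∧ (z • U y) ^ t = 1 := by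
    intro y
    have hpow : ∀ n : ℕ, ∀ a ∈ Rf ρ P M, a * U y ^ n = U y ^ n * cj ρ ((y : G) ^ n) a := by
      intro n
      induction n with
      | zero => intro a _; rw [pow_zero, pow_zero, mul_one, one_mul, cj_one]
      | succ n ih =>
        intro a ha
        rw [pow_succ', ← mul_assoc, hU y a ha, mul_assoc, ih _ (h.cj_mem_Rf _ ha), ← mul_assoc, ← cj_mul, ← pow_succ]
    obtain ⟨s, hs⟩ := h.nice_Rf.center (U y ^ t) ((Rf ρ P M).pow_mem (hUR y) t) fun a ha => by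
      rw [hpow t a ha, ht, pow_card_eq_one', cj_one]
    have hs0 : s ≠ 0 := fun h0 => by
      have hu : IsUnit (U y ^ t) := (isUnit_iff_exists.2 ⟨U' y, hUU' y, hU'U y⟩).pow _
      rw [hs, h0, zero_smul] at hu
      exact not_isUnit_zero hu
    obtain ⟨z, hz⟩ := IsAlgClosed.exists_pow_nat_eq s⁻¹ (Nat.pos_of_ne_zero (NeZero.ne t))
    refine ⟨z, fun h0 => inv_ne_zero hs0 (by rw [← hz, h0, zero_pow (NeZero.ne t)]), ?_⟩
    rw [smul_pow, hs, smul_smul, hz, inv_mul_cancel₀ hs0, one_smul]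
  choose z hz0 hzt using hWex
  set W : (L ⊓ K : Subgroup G) → End ℂ S := fun y => z y • U y with hW
  letI : CommRing (Algebra.adjoin ℂ (Set.range W)) := Algebra.adjoinCommRingOfComm ℂ (s := Set.range W) (by
    rintro _ ⟨x, rfl⟩ _ ⟨y, rfl⟩
    simp only [hW, smul_mul_assoc, mul_smul_comm, hcomm x y, smul_comm (z x) (z y)])
  let w : (L ⊓ K : Subgroup G) → Algebra.adjoin ℂ (Set.range W) := fun y => ⟨W y, Algebra.subset_adjoin ⟨y, rfl⟩⟩
  have hwt : ∀ y, w y ^ t = 1 := fun y => Subtype.ext (hzt y)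
  obtain ⟨ζ, hζ⟩ : ∃ ζ : ℂ, IsPrimitiveRoot ζ t := ⟨_, Complex.isPrimitiveRoot_exp t (NeZero.ne t)⟩
  let E : ((L ⊓ K : Subgroup G) → Fin t) → Algebra.adjoin ℂ (Set.range W) := fun f => ∏ y, dft ζ (w y) (f y)
  have hEidem : ∀ f, E f * E f = E f := fun f => by
    simp only [E, ← Finset.prod_mul_distrib]
    exact Finset.prod_congr rfl fun y _ => dft_idem hζ.pow_eq_one (hwt y) _
  have hEorth : ∀ f f', f ≠ f' → E f * E f' = 0 := fun f f' hff => by
    obtain ⟨y, hy⟩ := Function.ne_iff.1 hff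
    simp only [E, ← Finset.prod_mul_distrib]
    exact Finset.prod_eq_zero (Finset.mem_univ y) (dft_orth hζ (hwt y) hy)
  have hEsum : ∑ f, E f = 1 := by
    simp only [E]
    rw [← Fintype.prod_sum]
    exact Finset.prod_eq_one fun y _ => dft_sum hζ _
  -- conjugation permutes the idempotents
  have hperm : ∀ g : G, ∀ f, ∃ f', cj ρ g (E f : End ℂ S) = (E f' : End ℂ S) := by
    intro g f
    obtain ⟨m, hm, k, hk, rfl⟩ := hfac g
    let σ : (L ⊓ K : Subgroup G) ≃ (L ⊓ K : Subgroup G) :=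
      { toFun := fun y => ⟨k * y * k⁻¹, (inferInstance : L.Normal).conj_mem _ y.2.1 k,
          K.mul_mem (K.mul_mem hk y.2.2) (K.inv_mem hk)⟩
        invFun := fun y => ⟨k⁻¹ * y * k, (inferInstance : L.Normal).conj_mem' _ y.2.1 k,
          K.mul_mem (K.mul_mem (K.inv_mem hk) y.2.2) hk⟩
        left_inv := fun y => Subtype.ext (by simp [mul_assoc])
        right_inv := fun y => Subtype.ext (by simp [mul_assoc]) }
    have hW1 : ∀ y, ∃ s : Fin t, cj ρ (m * k) (W y) = (ζ ^ (s : ℕ)) • W (σ y) := by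
      intro y
      obtain ⟨s, hs⟩ := h.implementer_unique (hU'R (σ y)) (hUU' (σ y)) (hU'U (σ y)) (hU (σ y))
        (h.cj_mem_Rf k (hUR y)) (fun a ha => hconj k y a ha)
      have e : cj ρ (m * k) (W y) = (z y * s * (z (σ y))⁻¹) • W (σ y) := by
        simp only [hW, cj_mul, map_smul, hs, h.cj_Rf_eq hm (hUR (σ y)), smul_smul]
        rw [mul_assoc (z y * s), inv_mul_cancel₀ (hz0 (σ y)), mul_one]
      have hct : (z y * s * (z (σ y))⁻¹) ^ t = 1 := by
        have := congrArg (cj ρ (m * k)) (hzt y)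
        rw [map_pow, map_one, show cj ρ (m * k) (z y • U y) = cj ρ (m * k) (W y) from rfl, e, smul_pow,
          show W (σ y) ^ t = 1 from hzt (σ y)] at this
        exact smul_one_inj (this.trans (one_smul ℂ _).symm)
      obtain ⟨i, hi, hiz⟩ := hζ.eq_pow_of_pow_eq_one hct
      exact ⟨⟨i, hi⟩, by rw [e, hiz]⟩
    choose s hs using hW1
    have hmap : ∀ a ∈ Algebra.adjoin ℂ (Set.range W), cj ρ (m * k) a ∈ Algebra.adjoin ℂ (Set.range W) := by
      intro a ha
      have h1 : Algebra.adjoin ℂ (Set.range W) ≤ (Algebra.adjoin ℂ (Set.range W)).comap (cj ρ (m * k)).toAlgHom :=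
        Algebra.adjoin_le fun _ ⟨y, hy⟩ => by
          show cj ρ (m * k) _ ∈ Algebra.adjoin ℂ (Set.range W)
          rw [← hy, hs]
          exact Subalgebra.smul_mem _ (Algebra.subset_adjoin ⟨σ y, rfl⟩ : W (σ y) ∈ Algebra.adjoin ℂ (Set.range W)) _
      exact h1 ha
    let Ψ : Algebra.adjoin ℂ (Set.range W) →ₐ[ℂ] Algebra.adjoin ℂ (Set.range W) :=
      (((cj ρ (m * k)).toAlgHom.comp (Algebra.adjoin ℂ (Set.range W)).val).codRestrict _ fun a => hmap a a.2)
    have hΨ : ∀ y, Ψ (dft ζ (w y) (f y)) = dft ζ (w (σ y)) (f y + s y) := by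
      intro y
      have hwy : Ψ (w y) = (ζ ^ (s y : ℕ)) • w (σ y) := Subtype.ext (hs y)
      rw [← dft_shift hζ.pow_eq_one, ← hwy, dft, dft]
      simp only [map_smul, map_sum, map_pow]
    refine ⟨fun y => f (σ.symm y) + s (σ.symm y), ?_⟩
    show ((Ψ (E f) : Algebra.adjoin ℂ (Set.range W)) : End ℂ S) = _
    congr 1
    simp only [E, map_prod]
    refine Fintype.prod_equiv σ _ _ fun y => ?_
    rw [hΨ, Equiv.symm_apply_apply]
  obtain ⟨f₀, hf₀⟩ : ∃ f, E f ≠ 0 := by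
    by_contra hc
    push Not at hc
    exact one_ne_zero (α := End ℂ S) (by
      have := congrArg Subtype.val hEsum
      simpa [hc] using this.symm)
  have hE0 : (E f₀ : End ℂ S) ≠ 0 := fun e => hf₀ (Subtype.ext e)
  -- the stabiliser of one of them
  let J : Subgroup G :=
    { carrier := {g | cj ρ g (E f₀ : End ℂ S) = E f₀}
      one_mem' := cj_one ρ _
      mul_mem' := fun {a b} ha hb => by
        show cj ρ (a * b) _ = _
        rw [cj_mul, show cj ρ b _ = _ from hb]; exact ha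
      inv_mem' := fun {a} ha => by
        show cj ρ a⁻¹ _ = _
        conv_lhs => rw [← show cj ρ a _ = (E f₀ : End ℂ S) from ha]
        rw [← cj_mul, inv_mul_cancel, cj_one] }
  letI := Fintype.ofFinite (G ⧸ J)
  let P' : G ⧸ J → End ℂ S := fun x => cj ρ x.out (E f₀ : End ℂ S)
  have hP' : ∀ g : G, P' (g : G ⧸ J) = cj ρ g (E f₀ : End ℂ S) := by
    intro g
    obtain ⟨j, hj⟩ := QuotientGroup.mk_out_eq_mul J g
    show cj ρ (QuotientGroup.mk g : G ⧸ J).out _ = _
    rw [hj, cj_mul, show cj ρ (j : G) _ = _ from j.2]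
  have hidem : ∀ x, P' x * P' x = P' x := fun x => by
    show cj ρ x.out _ * cj ρ x.out _ = cj ρ x.out _
    rw [← map_mul, ← Subalgebra.coe_mul, hEidem]
  have horth : ∀ x y, x ≠ y → P' x * P' y = 0 := by
    intro x y
    induction x using QuotientGroup.induction_on with
    | H a =>
      induction y using QuotientGroup.induction_on with
      | H b =>
        intro hne
        rw [hP', hP']
        obtain ⟨fa, ha⟩ := hperm a f₀
        obtain ⟨fb, hb⟩ := hperm b f₀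
        have hne' : fa ≠ fb := fun e => hne (QuotientGroup.eq.2 (show cj ρ (a⁻¹ * b) _ = _ by
          rw [cj_mul, hb, ← e, ← ha, ← cj_mul, inv_mul_cancel, cj_one]))
        rw [ha, hb, ← Subalgebra.coe_mul, hEorth fa fb hne', Subalgebra.coe_zero]
  have hequiv : ∀ (g : G) (x : G ⧸ J), cj ρ g (P' x) = P' (g • x) := by
    intro g x
    induction x using QuotientGroup.induction_on with
    | H a => rw [MulAction.Quotient.smul_coe, hP', hP', smul_eq_mul, cj_mul]
  have hne : ∀ x, P' x ≠ 0 := fun x e => hE0 ((cj ρ x.out).injective (e.trans (map_zero _).symm))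
  have hPsum : ∑ x, P' x = 1 := by
    obtain ⟨c, hc⟩ := hschur (∑ x, P' x) ((mem_cent' ρ).2 fun g _ => by
      rw [map_sum]
      exact Fintype.sum_equiv (MulAction.toPerm g) _ _ fun x => hequiv g x)
    have h1 := congrArg (P' ((1 : G) : G ⧸ J) * ·) hc
    simp only [mul_smul_comm, mul_one, Finset.mul_sum] at h1
    rw [Finset.sum_eq_single ((1 : G) : G ⧸ J) (fun x _ hx => horth _ _ hx.symm) (by simp), hidem] at h1
    have hc1 : c = 1 := smul_left_injective ℂ (hne ((1 : G) : G ⧸ J)) (by simpa using h1.symm)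
    rw [hc, hc1, one_smul]
  have hLfix : ∀ l ∈ L, ∀ a ∈ Algebra.adjoin ℂ (Set.range W), cj ρ l a = a := by
    intro l hl a ha
    have h1 : Algebra.adjoin ℂ (Set.range W) ≤ cent ρ (L : Set G) := Algebra.adjoin_le fun _ ⟨y, hy⟩ => by
      show _ ∈ cent ρ (L : Set G)
      rw [mem_cent']
      intro l hl
      obtain ⟨m, hm, k, hk, rfl⟩ := hfac l
      have hkL : k ∈ L := by
        have := L.mul_mem (L.inv_mem (hML hm)) hl
        rwa [inv_mul_cancel_left] at this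
      rw [← hy]
      simp only [hW, map_smul, cj_mul, hinv ⟨k, hkL, hk⟩ y, h.cj_Rf_eq hm (hUR y)]
    exact (mem_cent' ρ).1 (h1 ha) l hl
  refine ⟨J, P', ?_, fun l hl => hLfix l hl _ (E f₀).2, ⟨hidem, horth, fun {inst} => by convert hPsum,
    fun g x => by rw [← hequiv, cj_apply, mul_assoc (_ * _), inv_rho, mul_one], hne⟩⟩
  intro hJ
  obtain ⟨c, hc⟩ := hschur (E f₀ : End ℂ S) ((mem_cent' ρ).2 fun g _ => (hJ ▸ Subgroup.mem_top g : g ∈ J))
  have hc1 : c = 1 := by
    have := congrArg Subtype.val (hEidem f₀)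
    rw [Subalgebra.coe_mul] at this
    have h2 : (c * c) • (1 : End ℂ S) = c • 1 := by
      rw [hc, smul_mul_assoc, one_mul, smul_smul] at this; exact this
    exact mul_right_cancel₀ (fun h0 => hE0 (by rw [hc, h0, zero_smul])) ((smul_one_inj h2).trans (one_mul c).symm)
  have hE1 : E f₀ = 1 := Subtype.ext (by rw [hc, hc1, one_smul]; rfl)
  let y : (L ⊓ K : Subgroup G) := ⟨y₀, hy₀⟩
  have hWsc : (ζ ^ (f₀ y : ℕ)) • W y = 1 := by
    have h1 : ((ζ ^ (f₀ y : ℕ)) • w y) * E f₀ = E f₀ := by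
      simp only [E]
      rw [← Finset.mul_prod_erase _ _ (Finset.mem_univ y), ← mul_assoc, smul_dft hζ.pow_eq_one (hwt y)]
    rw [hE1, mul_one] at h1
    exact congrArg Subtype.val h1
  have hζ0 : ζ ≠ 0 := hζ.ne_zero (NeZero.ne t)
  have hUsc : U y = (ζ ^ (f₀ y : ℕ) * z y)⁻¹ • (1 : End ℂ S) := by
    rw [← hWsc, hW, smul_smul, smul_smul, mul_assoc, inv_mul_cancel₀ (mul_ne_zero (pow_ne_zero _ hζ0) (hz0 y)), one_smul]
  apply hy₀'
  refine mem_normalCore_of_smul fun x => ?_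
  obtain ⟨r, hr, r', -, hrd, -, hrr, -⟩ := h.exists_shift (h.μ_mem x)
  have hfix : cj ρ y₀ r = r := by
    have := hU y r hr
    rw [hUsc, mul_smul_comm, smul_mul_assoc, mul_one, one_mul] at this
    exact (smul_right_injective _ (inv_ne_zero (mul_ne_zero (pow_ne_zero _ hζ0) (hz0 y))) this).symm
  have h2 := hrd.conj h.imp y₀
  rw [hfix] at h2
  have h3 := h2.eq_of_inv h.imp hrd hrr ((1 : G) : G ⧸ K)
  rwa [mul_smul, mul_smul, show y₀⁻¹ • ((1 : G) : G ⧸ K) = ((1 : G) : G ⧸ K) by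
    rw [MulAction.Quotient.smul_coe, smul_eq_mul, mul_one, QuotientGroup.eq]; simpa using hy₀.2, h.μ_smul] at h3

end Setup

end CfsgLib.Berger
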